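import Cfsg.Agent.Schur.Stemify

/-!
# The central extension of a group by a bilinear cocycle
-/

namespace CfsgLib.Schur

universe u v

variable {G : Type u} [Group G] {A : Type v} [AddCommGroup A]

/-- The carrier of the extension attached to a bilinear map `β`. -/
@[ext]
structure BilExt (β : Additive G →+ Additive G →+ A) where
  /-- base coordinate -/
  base : G
  /-- fibre coordinate -/
  fib : A

variable {β : Additive G →+ Additive G →+ A}

instance bilExtGroup : Group (BilExt β) where
  mul x y := ⟨x.base * y.base, x.fib + y.fib + β (Additive.ofMul x.base) (Additive.ofMul y.base)⟩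
  one := ⟨1, 0⟩
  inv x := ⟨x.base⁻¹, -x.fib + β (Additive.ofMul x.base) (Additive.ofMul x.base)⟩
  mul_assoc x y z := by
    apply BilExt.ext
    · exact mul_assoc _ _ _
    · change x.fib + y.fib + β (Additive.ofMul x.base) (Additive.ofMul y.base) + z.fib +
        β (Additive.ofMul (x.base * y.base)) (Additive.ofMul z.base) =
        x.fib + (y.fib + z.fib + β (Additive.ofMul y.base) (Additive.ofMul z.base)) +
        β (Additive.ofMul x.base) (Additive.ofMul (y.base * z.base))
      simp only [ofMul_mul, map_add, AddMonoidHom.add_apply]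
      abel
  one_mul x := by
    apply BilExt.ext
    · exact one_mul _
    · change (0 : A) + x.fib + β (Additive.ofMul 1) (Additive.ofMul x.base) = x.fib
      simp
  mul_one x := by
    apply BilExt.ext
    · exact mul_one _
    · change x.fib + 0 + β (Additive.ofMul x.base) (Additive.ofMul 1) = x.fib
      simp
  inv_mul_cancel x := by
    apply BilExt.ext
    · exact inv_mul_cancel _
    · change -x.fib + β (Additive.ofMul x.base) (Additive.ofMul x.base) + x.fib +
        β (Additive.ofMul x.base⁻¹) (Additive.ofMul x.base) = 0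
      simp only [ofMul_inv, map_neg, AddMonoidHom.neg_apply]
      abel

theorem bilExt_mul (x y : BilExt β) : x * y =
    ⟨x.base * y.base, x.fib + y.fib + β (Additive.ofMul x.base) (Additive.ofMul y.base)⟩ := rfl

instance bilExtFinite [Finite G] [Finite A] : Finite (BilExt β) :=
  Finite.of_injective (fun x : BilExt β => (x.base, x.fib))
    fun x y h => BilExt.ext (Prod.ext_iff.1 h).1 (Prod.ext_iff.1 h).2

/-- Projection to the base. -/
def bilProj (β : Additive G →+ Additive G →+ A) : BilExt β →* G :=
  MonoidHom.mk' (fun x => x.base) fun _ _ => rfl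

theorem bilProj_surjective (β : Additive G →+ Additive G →+ A) : Function.Surjective (bilProj β) :=
  fun g => ⟨⟨g, 0⟩, rfl⟩

theorem bilProj_ker_le_center (β : Additive G →+ Additive G →+ A) :
    (bilProj β).ker ≤ Subgroup.center (BilExt β) := by
  intro x hx
  have h : x.base = 1 := hx
  refine Subgroup.mem_center_iff.2 fun y => ?_
  rw [bilExt_mul, bilExt_mul, h]
  apply BilExt.ext
  · simp
  · simp [add_comm]

/-- The fibre `A` inside the extension. -/
def bilIncl (β : Additive G →+ Additive G →+ A) : Multiplicative A →* BilExt β :=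
  MonoidHom.mk' (fun a => ⟨1, a.toAdd⟩) fun a b => by
    rw [bilExt_mul]
    apply BilExt.ext <;> simp

open scoped commutatorElement in
theorem bil_commutator (x y : G) (hxy : Commute x y) :
    ⁅(⟨x, 0⟩ : BilExt β), (⟨y, 0⟩ : BilExt β)⁆ = ⟨1, β (Additive.ofMul x) (Additive.ofMul y) -
      β (Additive.ofMul y) (Additive.ofMul x)⟩ := by
  have h : (⟨x, 0⟩ : BilExt β) * ⟨y, 0⟩ = ⟨1, β (Additive.ofMul x) (Additive.ofMul y) -
      β (Additive.ofMul y) (Additive.ofMul x)⟩ * (⟨y, 0⟩ * ⟨x, 0⟩) := by
    simp only [bilExt_mul]
    apply BilExt.ext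
    · simp [hxy.eq]
    · simp
  rw [commutatorElement_def, h]
  group

/-- If the alternating form of `β` takes the value `a`, then `a` lies in `ker ⊓ commutator`. -/
theorem bil_mem_inf (x y : G) (hxy : Commute x y) :
    (⟨1, β (Additive.ofMul x) (Additive.ofMul y) - β (Additive.ofMul y) (Additive.ofMul x)⟩ :
      BilExt β) ∈ (bilProj β).ker ⊓ commutator (BilExt β) := by
  refine ⟨rfl, ?_⟩
  rw [← bil_commutator x y hxy, commutator_def]
  exact Subgroup.commutator_mem_commutator (Subgroup.mem_top _) (Subgroup.mem_top _)

theorem not_trivial_of_alt [Finite G] [Finite A] (x y : G) (hxy : Commute x y)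
    (hne : β (Additive.ofMul x) (Additive.ofMul y) ≠ β (Additive.ofMul y) (Additive.ofMul x)) :
    ¬ Cfsg.HasCyclicSchurMultiplier G 1 := by
  intro h
  have := inf_commutator_eq_bot_of_trivial h (bilProj β) (bilProj_surjective β) (bilProj_ker_le_center β)
  have h2 := bil_mem_inf (β := β) x y hxy
  rw [this, Subgroup.mem_bot] at h2
  exact hne (sub_eq_zero.1 (congrArg BilExt.fib h2))

end CfsgLib.Schur
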