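import Cfsg.Agent.Schur.Pullback
import Mathlib

/-!
# The primary part of the multiplier is a direct factor of the multiplier of a Sylow subgroup

Corestriction is realised by inducing a central extension of a subgroup to the whole group.
-/

namespace CfsgLib.Schur

universe u v w

section Induced

variable {G : Type u} [Group G] (P : Subgroup G)

/-- The chosen representative of a coset. -/
noncomputable def cosRep (i : G ⧸ P) : G := Quotient.out i

theorem cosRep_mk (i : G ⧸ P) : ((cosRep P i : G) : G ⧸ P) = i := Quotient.out_eq' i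

/-- The monomial cocycle with values in the subgroup. -/
noncomputable def cocy (g : G) (i : G ⧸ P) : P :=
  ⟨(cosRep P (g • i))⁻¹ * (g * cosRep P i), by
    rw [← QuotientGroup.eq]
    conv_rhs => rw [← smul_eq_mul, ← MulAction.Quotient.smul_coe, cosRep_mk]
    rw [cosRep_mk]⟩

theorem cocy_mul (g h : G) (i : G ⧸ P) : cocy P (g * h) i = cocy P g (h • i) * cocy P h i := by
  refine Subtype.ext ?_
  change (cosRep P ((g * h) • i))⁻¹ * (g * h * cosRep P i) =
    (cosRep P (g • h • i))⁻¹ * (g * cosRep P (h • i)) * ((cosRep P (h • i))⁻¹ * (h * cosRep P i))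
  rw [mul_smul]
  group

theorem cocy_one (i : G ⧸ P) : cocy P 1 i = 1 := by
  refine Subtype.ext ?_
  change (cosRep P ((1 : G) • i))⁻¹ * (1 * cosRep P i) = 1
  rw [one_smul, one_mul, inv_mul_cancel]

variable {P} {F : Type u} [Group F] (ζ : F →* P)

/-- The induced group: monomial lifts. -/
structure IndGrp where
  g : G
  f : G ⧸ P → F
  lift : ∀ i, ζ (f i) = cocy P g i

theorem IndGrp.ext' {x y : IndGrp ζ} (hg : x.g = y.g) (hf : ∀ i, x.f i = y.f i) : x = y := by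
  cases x; cases y
  obtain rfl : _ = _ := hg
  obtain rfl : _ = _ := funext hf
  rfl

noncomputable instance : Mul (IndGrp ζ) :=
  ⟨fun x y => ⟨x.g * y.g, fun i => x.f (y.g • i) * y.f i, fun i => by rw [map_mul, x.lift, y.lift, cocy_mul]⟩⟩

noncomputable instance : One (IndGrp ζ) := ⟨⟨1, fun _ => 1, fun i => by rw [map_one, cocy_one]⟩⟩

noncomputable instance : Inv (IndGrp ζ) :=
  ⟨fun x => ⟨x.g⁻¹, fun i => (x.f (x.g⁻¹ • i))⁻¹, fun i => by
    rw [map_inv, x.lift]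
    refine inv_eq_of_mul_eq_one_right ?_
    rw [← cocy_mul, mul_inv_cancel, cocy_one]⟩⟩

theorem IndGrp.mul_g (x y : IndGrp ζ) : (x * y).g = x.g * y.g := rfl
theorem IndGrp.mul_f (x y : IndGrp ζ) (i : G ⧸ P) : (x * y).f i = x.f (y.g • i) * y.f i := rfl

noncomputable instance : Group (IndGrp ζ) :=
  Group.ofLeftAxioms
    (fun x y z => IndGrp.ext' ζ (mul_assoc _ _ _) fun i => by
      simp only [IndGrp.mul_f, IndGrp.mul_g, mul_smul, mul_assoc])
    (fun x => IndGrp.ext' ζ (one_mul _) fun i => one_mul _)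
    (fun x => IndGrp.ext' ζ (inv_mul_cancel _) fun i => by
      rw [IndGrp.mul_f]
      change (x.f (x.g⁻¹ • x.g • i))⁻¹ * x.f i = 1
      rw [inv_smul_smul, inv_mul_cancel])

/-- The projection to the group. -/
noncomputable def indProj : IndGrp ζ →* G := MonoidHom.mk' (fun x => x.g) fun _ _ => rfl

theorem indProj_surjective (hζ : Function.Surjective ζ) : Function.Surjective (indProj ζ) := fun g =>
  ⟨⟨g, fun i => (hζ (cocy P g i)).choose, fun i => (hζ (cocy P g i)).choose_spec⟩, rfl⟩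

/-- The product of the coordinates in the abelianization. -/
noncomputable def indTransfer [Fintype (G ⧸ P)] : IndGrp ζ →* Abelianization F :=
  MonoidHom.mk' (fun x => ∏ i, Abelianization.of (x.f i)) fun x y => by
    simp only [IndGrp.mul_f, map_mul, Finset.prod_mul_distrib]
    congr 1
    exact Fintype.prod_equiv (MulAction.toPerm y.g) _ _ fun i => rfl

variable {C : Type u} [CommGroup C] (κ : C →* F) (hκ : ∀ c, ζ (κ c) = 1)

/-- The kernel tuples. -/
noncomputable def indKer : (G ⧸ P → C) →* IndGrp ζ :=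
  MonoidHom.mk' (fun c => ⟨1, fun i => κ (c i), fun i => by rw [hκ, cocy_one]⟩) fun c d =>
    IndGrp.ext' ζ (one_mul _).symm fun i => by
      rw [IndGrp.mul_f]
      change κ (c i * d i) = κ (c ((1 : G) • i)) * κ (d i)
      rw [one_smul, map_mul]

theorem exists_indKer (hC : ∀ x : F, ζ x = 1 → ∃ c, κ c = x) (x : IndGrp ζ) (hx : x.g = 1) :
    ∃ c, indKer ζ κ hκ c = x := by
  have h : ∀ i, ∃ c, κ c = x.f i := fun i => hC _ (by rw [x.lift, hx, cocy_one])
  choose c hc using h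
  exact ⟨c, IndGrp.ext' ζ hx.symm hc⟩

theorem indKer_conj (hcen : ∀ c y, y * κ c = κ c * y) (x : IndGrp ζ) (c : G ⧸ P → C) :
    x * indKer ζ κ hκ c = indKer ζ κ hκ (fun i => c (x.g⁻¹ • i)) * x := by
  refine IndGrp.ext' ζ ((mul_one _).trans (one_mul _).symm) fun i => ?_
  rw [IndGrp.mul_f, IndGrp.mul_f]
  change x.f ((1 : G) • i) * κ (c i) = κ (c (x.g⁻¹ • x.g • i)) * x.f i
  rw [one_smul, inv_smul_smul, hcen]

variable [Fintype (G ⧸ P)]

/-- Tuples with product one. -/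
noncomputable def indNull : Subgroup (IndGrp ζ) :=
  ((MonoidHom.mk' (fun c : G ⧸ P → C => ∏ i, c i) fun c d => Finset.prod_mul_distrib).ker).map (indKer ζ κ hκ)

theorem indNull_normal (hcen : ∀ c y, y * κ c = κ c * y) : (indNull ζ κ hκ).Normal := by
  constructor
  rintro _ ⟨c, hc, rfl⟩ x
  refine ⟨fun i => c (x.g⁻¹ • i), ?_, ?_⟩
  · have hc' : ∏ i, c i = 1 := hc
    change ∏ i, c (x.g⁻¹ • i) = 1
    rw [← hc']
    exact Fintype.prod_equiv (MulAction.toPerm x.g⁻¹) _ _ fun i => rfl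
  · rw [indKer_conj ζ κ hκ hcen, mul_inv_cancel_right]

end Induced

theorem primary_summand {A : Type v} {B : Type w} [CommGroup A] [CommGroup B] [Finite A] (p : ℕ) [hp : Fact p.Prime]
    (Θ : A →* B) (π : B →* A) (n : ℕ) (hn : ¬ p ∣ n) (h : ∀ a, π (Θ a) = a ^ n) :
    ∃ C D : Subgroup B, C ⊓ D = ⊥ ∧ C ⊔ D = ⊤ ∧ Nonempty (CommGroup.primaryComponent A p ≃* C) := by
  set k := (Nat.card A).factorization p
  set r := Nat.card A / p ^ k
  have hcop : Nat.Coprime (p ^ k) r :=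
    (Nat.coprime_ordCompl hp.out Nat.card_pos.ne').pow_left k
  obtain ⟨e, he1, he0⟩ := Nat.chineseRemainder hcop 1 0
  have hmem : ∀ a : A, a ^ e ∈ CommGroup.primaryComponent A p := fun a => by
    refine CommGroup.mem_primaryComponent.2 ⟨k, ?_⟩
    obtain ⟨u, hu⟩ := Nat.modEq_zero_iff_dvd.1 he0
    rw [← pow_mul, hu, mul_comm r u, mul_assoc, mul_comm r, Nat.ordProj_mul_ordCompl_eq_self, mul_comm,
      pow_mul, pow_card_eq_one', one_pow]
  have hord : ∀ a ∈ CommGroup.primaryComponent A p, a ^ p ^ k = 1 := fun a ha => by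
    obtain ⟨j, hj⟩ := CommGroup.mem_primaryComponent.1 ha
    rw [← orderOf_dvd_iff_pow_eq_one]
    obtain ⟨i, -, hi⟩ := (Nat.dvd_prime_pow hp.out).1 (orderOf_dvd_of_pow_eq_one hj)
    rw [hi]
    refine pow_dvd_pow p ?_
    have h1 : p ^ i ∣ Nat.card A := hi ▸ orderOf_dvd_natCard a
    exact (hp.out.pow_dvd_iff_le_factorization Nat.card_pos.ne').1 h1
  have hid : ∀ a ∈ CommGroup.primaryComponent A p, a ^ e = a := fun a ha => by
    conv_rhs => rw [← pow_one a]
    exact pow_eq_pow_iff_modEq.2 (he1.of_dvd (orderOf_dvd_of_pow_eq_one (hord a ha)))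
  have hcn : Nat.Coprime n (p ^ k) := (Nat.Coprime.pow_left k ((hp.out.coprime_iff_not_dvd).2 hn)).symm
  obtain ⟨u, -, hu⟩ : ∃ u, u < p ^ k + 1 ∧ n * u ≡ 1 [MOD p ^ k] := by
    rcases Nat.lt_or_ge 1 (p ^ k) with h1 | h1
    · obtain ⟨u, hu, hu'⟩ := Nat.exists_mul_mod_eq_one_of_coprime hcn h1
      exact ⟨u, hu.trans (Nat.lt_succ_self _), by rw [Nat.ModEq, hu', Nat.mod_eq_of_lt h1]⟩
    · exact ⟨0, Nat.succ_pos _, by rw [le_antisymm h1 (Nat.one_le_pow _ _ hp.out.pos)]; exact Nat.modEq_one⟩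
  have hroot : ∀ a ∈ CommGroup.primaryComponent A p, (a ^ u) ^ n = a := fun a ha => by
    conv_rhs => rw [← pow_one a]
    rw [← pow_mul, mul_comm]
    exact pow_eq_pow_iff_modEq.2 (hu.of_dvd (orderOf_dvd_of_pow_eq_one (hord a ha)))
  let q : B →* A := (powMonoidHom e).comp π
  refine ⟨(CommGroup.primaryComponent A p).map Θ, q.ker, ?_, ?_, ⟨MulEquiv.ofBijective
    ((Θ.comp (CommGroup.primaryComponent A p).subtype).codRestrict ((CommGroup.primaryComponent A p).map Θ)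
      fun a => ⟨a, a.2, rfl⟩) ⟨fun a b hab => ?_, ?_⟩⟩⟩
  · refine (Subgroup.eq_bot_iff_forall _).2 ?_
    rintro b ⟨⟨a, ha, rfl⟩, hb⟩
    have h1 : (π (Θ a)) ^ e = 1 := hb
    rw [h, hid _ (Subgroup.pow_mem _ ha n)] at h1
    have h2 : a = 1 := by rw [← hroot a ha, ← pow_mul, mul_comm, pow_mul, h1, one_pow]
    rw [h2, map_one]
  · refine eq_top_iff.2 fun b _ => ?_
    have hy := hmem (π b)
    rw [← mul_inv_cancel_left (Θ ((π b ^ e) ^ u)) b]
    refine Subgroup.mul_mem_sup ⟨_, Subgroup.pow_mem _ hy u, rfl⟩ ?_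
    change (π ((Θ ((π b ^ e) ^ u))⁻¹ * b)) ^ e = 1
    rw [map_mul, map_inv, h, hroot _ hy, mul_pow, inv_pow, hid _ hy, inv_mul_cancel]
  · have hab' : Θ (a : A) = Θ (b : A) := congrArg Subtype.val hab
    have h1 := congrArg π hab'
    rw [h, h] at h1
    refine Subtype.ext ?_
    rw [← hroot _ a.2, ← hroot _ b.2, ← pow_mul, ← pow_mul, mul_comm, pow_mul, pow_mul, h1]
  · rintro ⟨_, a, ha, rfl⟩
    exact ⟨⟨a, ha⟩, rfl⟩

theorem multiplier_transfer {G : Type u} [Group G] [Finite G] (P : Subgroup G) {A : Type v} {B : Type w}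
    [CommGroup A] [CommGroup B] (hA : Cfsg.HasSchurMultiplier G A) (hB : Cfsg.HasSchurMultiplier P B) :
    ∃ (Θ : A →* B) (π : B →* A), ∀ a, π (Θ a) = a ^ P.index := by
  classical
  obtain ⟨⟨Γ, _, _, σ, hσ, ⟨eA⟩⟩, -⟩ := id hA
  obtain ⟨⟨X, _, _, ρ, hρ, ⟨eB⟩⟩, -⟩ := id hB
  let Δ : Subgroup Γ := P.comap σ
  let σΔ : Δ →* P := (σ.comp Δ.subtype).codRestrict P fun d => d.2
  have hσΔs : Function.Surjective σΔ := fun x => by
    obtain ⟨γ, hγ⟩ := hσ.1 x
    exact ⟨⟨γ, by rw [Subgroup.mem_comap, hγ]; exact x.2⟩, Subtype.ext hγ⟩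
  have hΔk : ∀ d : Δ, σΔ d = 1 → (d : Γ) ∈ σ.ker := fun d hd => congrArg Subtype.val hd
  have hΔc : σΔ.ker ≤ Subgroup.center Δ := fun d hd => Subgroup.mem_center_iff.2 fun e =>
    Subtype.ext (Subgroup.mem_center_iff.1 (hσ.2.1 (hΔk d hd)) _)
  let F := pullback ρ σΔ
  let ζ : F →* P := ρ.comp (pfst ρ σΔ)
  have hζs : Function.Surjective ζ := hρ.1.comp (pfst_surjective hσΔs)
  have hζc : ζ.ker ≤ Subgroup.center F := base_ker_le_center hρ.2.1 hΔc
  letI : CommGroup ζ.ker :=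
    { (inferInstance : Group ζ.ker) with
      mul_comm := fun a b => Subtype.ext ((Subgroup.mem_center_iff.1 (hζc a.2) (b : F)).symm) }
  letI : CommGroup σ.ker :=
    { (inferInstance : Group σ.ker) with
      mul_comm := fun a b => Subtype.ext ((Subgroup.mem_center_iff.1 (hσ.2.1 a.2) (b : Γ)).symm) }
  let κ : ζ.ker →* F := ζ.ker.subtype
  have hκ : ∀ c, ζ (κ c) = 1 := fun c => c.2
  have hcen : ∀ c y, y * κ c = κ c * y := fun c y => Subgroup.mem_center_iff.1 (hζc c.2) y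
  haveI := Fintype.ofFinite (G ⧸ P)
  haveI := indNull_normal ζ κ hκ hcen
  let N := indNull ζ κ hκ
  have hNlow : N ≤ (indProj ζ).ker := by
    rintro _ ⟨c, -, rfl⟩; rfl
  let E := IndGrp ζ ⧸ N
  haveI : Finite (IndGrp ζ) := Finite.of_injective (fun x => (x.g, x.f))
    fun x y h => IndGrp.ext' ζ (congrArg Prod.fst h) (congrFun (congrArg Prod.snd h))
  let φE : E →* G := QuotientGroup.lift N (indProj ζ) hNlow
  have hφEs : Function.Surjective φE := fun g => by
    obtain ⟨x, hx⟩ := indProj_surjective ζ hζs g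
    exact ⟨(x : E), hx⟩
  have hφEc : φE.ker ≤ Subgroup.center E := by
    intro z hz
    obtain ⟨z, rfl⟩ := QuotientGroup.mk'_surjective N z
    obtain ⟨c, rfl⟩ := exists_indKer ζ κ hκ (fun x hx => ⟨⟨x, hx⟩, rfl⟩) z hz
    refine Subgroup.mem_center_iff.2 fun y => ?_
    obtain ⟨y, rfl⟩ := QuotientGroup.mk'_surjective N y
    rw [← map_mul, ← map_mul, indKer_conj ζ κ hκ hcen]
    have h : QuotientGroup.mk' N (indKer ζ κ hκ fun i => c (y.g⁻¹ • i)) = QuotientGroup.mk' N (indKer ζ κ hκ c) := by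
      refine QuotientGroup.eq.2 ⟨(fun i => c (y.g⁻¹ • i))⁻¹ * c, ?_, by rw [map_mul, map_inv]⟩
      change ∏ i, ((c (y.g⁻¹ • i))⁻¹ * c i) = 1
      rw [Finset.prod_mul_distrib, Finset.prod_inv_distrib, inv_mul_eq_one]
      exact Fintype.prod_equiv (MulAction.toPerm y.g⁻¹) _ _ fun i => rfl
    rw [map_mul, map_mul, h]
  -- pullback of the cover with the induced group
  let R := pullback σ (indProj ζ)
  let R' := pullback σ φE
  let down : R →* R' :=
    (((MonoidHom.id Γ).prodMap (QuotientGroup.mk' N)).comp R.subtype).codRestrict R' fun z => z.2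
  have hrep : ∀ a : σ.ker, ∃ z : R, z ∈ commutator R ∧ (z : Γ × IndGrp ζ).1 = (a : Γ) ∧
      ∃ c, indKer ζ κ hκ c = (z : Γ × IndGrp ζ).2 := fun a => by
    obtain ⟨z, hz, hz1⟩ := exists_mem_commutator_lift (pfst σ (indProj ζ))
      (pfst_surjective (indProj_surjective ζ hζs)) (hσ.2.2 a.2)
    refine ⟨z, hz, hz1, exists_indKer ζ κ hκ (fun x hx => ⟨⟨x, hx⟩, rfl⟩) _ ?_⟩
    exact (mem_pullback.1 z.2).symm.trans ((congrArg σ hz1).trans (MonoidHom.mem_ker.1 a.2))
  have huniq : ∀ (z : R) (c : G ⧸ P → ζ.ker), z ∈ commutator R → (z : Γ × IndGrp ζ).1 = 1 →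
      indKer ζ κ hκ c = (z : Γ × IndGrp ζ).2 → ∏ i, c i = 1 := by
    intro z c hz hz1 hc
    have hd : down z ∈ commutator R' := by
      have h : (commutator R).map down ≤ commutator R' := by
        rw [commutator_def, commutator_def, Subgroup.map_commutator]
        exact Subgroup.commutator_mono le_top le_top
      exact h (Subgroup.mem_map_of_mem _ hz)
    have h1 := cover_pullback hA hσ ⟨eA⟩ φE hφEs hφEc (down z) hd hz1
    obtain ⟨c', hc', hcc⟩ := (QuotientGroup.eq_one_iff _).1 h1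
    have hcc' : c' = c := by
      funext i
      have := congrArg (fun x : IndGrp ζ => x.f i) (hcc.trans hc.symm)
      exact Subtype.ext this
    exact hcc' ▸ hc'
  choose zA hzA hzA1 cA hcA using hrep
  let Θ0 : σ.ker →* ζ.ker := MonoidHom.mk' (fun a => ∏ i, cA a i) fun a b => by
    rw [← Finset.prod_mul_distrib]
    have h := huniq (zA (a * b) * (zA a * zA b)⁻¹) (cA (a * b) * (cA a * cA b)⁻¹)
      (Subgroup.mul_mem _ (hzA _) (Subgroup.inv_mem _ (Subgroup.mul_mem _ (hzA a) (hzA b))))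
      (by
        change (zA (a * b) : Γ × IndGrp ζ).1 * ((zA a : Γ × IndGrp ζ).1 * (zA b : Γ × IndGrp ζ).1)⁻¹ = 1
        rw [hzA1, hzA1, hzA1, Subgroup.coe_mul, mul_inv_cancel])
      (by rw [map_mul, map_inv, map_mul, hcA, hcA, hcA]; rfl)
    simp only [Pi.mul_apply, Pi.inv_apply, Finset.prod_mul_distrib, Finset.prod_inv_distrib] at h
    rw [mul_inv_eq_one] at h
    rw [Finset.prod_mul_distrib]
    exact h
  have hΘF : ∀ a, (Θ0 a : F) ∈ commutator F := fun a => by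
    have h : indTransfer ζ (zA a : Γ × IndGrp ζ).2 = 1 :=
      MonoidHom.mem_ker.1 (Abelianization.commutator_subset_ker ((indTransfer ζ).comp (psnd σ (indProj ζ))) (hzA a))
    rw [← hcA] at h
    refine (QuotientGroup.eq_one_iff _).1 ?_
    change ((Abelianization.of).comp κ) (∏ i, cA a i) = 1
    rw [map_prod]
    exact h
  -- the comparison
  have htt : ∀ i : G ⧸ P, ∃ γ, σ γ = cosRep P i := fun i => hσ.1 _
  choose tt htt using htt
  let sndF : F → Γ := fun x => (psnd ρ σΔ x : Γ)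
  let L : R → G ⧸ P → Γ := fun z i => (tt ((z : Γ × IndGrp ζ).2.g • i))⁻¹ * ((z : Γ × IndGrp ζ).1 * tt i)
  have hd : ∀ (z : R) (i : G ⧸ P), L z i * (sndF ((z : Γ × IndGrp ζ).2.f i))⁻¹ ∈ σ.ker := fun z i => by
    have h1 : σ (sndF ((z : Γ × IndGrp ζ).2.f i)) = (cocy P (z : Γ × IndGrp ζ).2.g i : G) := by
      rw [← (z : Γ × IndGrp ζ).2.lift i]
      exact (congrArg Subtype.val (mem_pullback.1 ((z : Γ × IndGrp ζ).2.f i).2)).symm
    have h2 : σ (z : Γ × IndGrp ζ).1 = (z : Γ × IndGrp ζ).2.g := mem_pullback.1 z.2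
    rw [MonoidHom.mem_ker, map_mul, map_inv, h1]
    simp only [L, map_mul, map_inv, htt, h2]
    exact mul_inv_cancel _
  let δ : R →* σ.ker := MonoidHom.mk' (fun z => ∏ i, ⟨_, hd z i⟩) fun z z' => by
    have hmul : ∀ i, (⟨_, hd (z * z') i⟩ : σ.ker) =
        ⟨_, hd z ((z' : Γ × IndGrp ζ).2.g • i)⟩ * ⟨_, hd z' i⟩ := fun i => by
      refine Subtype.ext ?_
      have hcen' := Subgroup.mem_center_iff.1 (hσ.2.1 (hd z' i))
      change L (z * z') i * (sndF (((z : Γ × IndGrp ζ).2 * (z' : Γ × IndGrp ζ).2).f i))⁻¹ =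
        L z ((z' : Γ × IndGrp ζ).2.g • i) * (sndF ((z : Γ × IndGrp ζ).2.f ((z' : Γ × IndGrp ζ).2.g • i)))⁻¹ *
          (L z' i * (sndF ((z' : Γ × IndGrp ζ).2.f i))⁻¹)
      have hL : L (z * z') i = L z ((z' : Γ × IndGrp ζ).2.g • i) * L z' i := by
        change (tt (((z : Γ × IndGrp ζ).2.g * (z' : Γ × IndGrp ζ).2.g) • i))⁻¹ *
          ((z : Γ × IndGrp ζ).1 * (z' : Γ × IndGrp ζ).1 * tt i) = _
        simp only [L, mul_smul]
        group
      have hS : sndF (((z : Γ × IndGrp ζ).2 * (z' : Γ × IndGrp ζ).2).f i) =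
          sndF ((z : Γ × IndGrp ζ).2.f ((z' : Γ × IndGrp ζ).2.g • i)) * sndF ((z' : Γ × IndGrp ζ).2.f i) := rfl
      rw [hL, hS, mul_inv_rev, mul_assoc (L z _) _ (L z' i * _),
        hcen' (sndF ((z : Γ × IndGrp ζ).2.f ((z' : Γ × IndGrp ζ).2.g • i)))⁻¹]
      group
    simp only [hmul, Finset.prod_mul_distrib]
    congr 1
    exact Fintype.prod_equiv (MulAction.toPerm (z' : Γ × IndGrp ζ).2.g) _ _ fun i => rfl
  let k2 : ζ.ker →* σ.ker := ((Δ.subtype.comp (psnd ρ σΔ)).comp ζ.ker.subtype).codRestrict σ.ker fun w =>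
    hΔk _ ((mem_pullback.1 (w : F).2).symm.trans w.2)
  have hpow : ∀ a : σ.ker, k2 (Θ0 a) = a ^ P.index := fun a => by
    have h1 : δ (zA a) = 1 := MonoidHom.mem_ker.1 (Abelianization.commutator_subset_ker δ (hzA a))
    have h2 : δ (zA a) = ∏ i, (a * (k2 (cA a i))⁻¹) := Finset.prod_congr rfl fun i _ => Subtype.ext (by
      change (tt ((zA a : Γ × IndGrp ζ).2.g • i))⁻¹ * ((zA a : Γ × IndGrp ζ).1 * tt i) *
        (sndF ((zA a : Γ × IndGrp ζ).2.f i))⁻¹ = (a : Γ) * ((k2 (cA a i) : Γ))⁻¹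
      rw [← hcA, hzA1]
      change (tt ((1 : G) • i))⁻¹ * ((a : Γ) * tt i) * _ = _
      rw [one_smul, ← Subgroup.mem_center_iff.1 (hσ.2.1 a.2) (tt i), inv_mul_cancel_left]
      rfl)
    rw [h2, Finset.prod_mul_distrib, Finset.prod_inv_distrib, Finset.prod_const, mul_inv_eq_one] at h1
    change k2 (∏ i, cA a i) = _
    rw [map_prod, ← h1, Finset.card_univ, ← Nat.card_eq_fintype_card, ← Subgroup.index_eq_card]
  -- the restriction
  have hres : ∀ b : ρ.ker, ∃ w : ζ.ker, (w : F) ∈ commutator F ∧ pfst ρ σΔ w = (b : X) := fun b => by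
    obtain ⟨w, hw, hwb⟩ := exists_mem_commutator_lift (pfst ρ σΔ) (pfst_surjective hσΔs) (hρ.2.2 b.2)
    exact ⟨⟨w, (congrArg ρ hwb).trans b.2⟩, hw, hwb⟩
  choose wB hwB hwB1 using hres
  have huB : ∀ (b : ρ.ker) (w : ζ.ker), (w : F) ∈ commutator F → pfst ρ σΔ w = (b : X) → k2 w = k2 (wB b) := by
    intro b w hw hw1
    have h := cover_pullback hB hρ ⟨eB⟩ σΔ hσΔs hΔc _ (Subgroup.mul_mem _ hw (Subgroup.inv_mem _ (hwB b)))
      (by
        change pfst ρ σΔ ((w : F) * (wB b : F)⁻¹) = 1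
        rw [map_mul, map_inv, hw1, hwB1, mul_inv_cancel])
    rw [← mul_inv_eq_one, ← map_inv, ← map_mul]
    refine Subtype.ext ?_
    exact (congrArg (fun d : Δ => (d : Γ)) h :)
  let π0 : ρ.ker →* σ.ker := MonoidHom.mk' (fun b => k2 (wB b)) fun a b => by
    rw [← map_mul]
    exact (huB (a * b) (wB a * wB b) (Subgroup.mul_mem _ (hwB a) (hwB b))
      (by rw [Subgroup.coe_mul, map_mul, hwB1, hwB1, Subgroup.coe_mul])).symm
  let k1 : ζ.ker →* ρ.ker := ((pfst ρ σΔ).comp ζ.ker.subtype).codRestrict ρ.ker fun w => w.2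
  refine ⟨eB.toMonoidHom.comp ((k1.comp Θ0).comp eA.symm.toMonoidHom),
    eA.toMonoidHom.comp (π0.comp eB.symm.toMonoidHom), fun a => ?_⟩
  change eA (π0 (eB.symm (eB (k1 (Θ0 (eA.symm a)))))) = _
  rw [MulEquiv.symm_apply_apply]
  change eA (k2 (wB (k1 (Θ0 (eA.symm a))))) = _
  rw [← huB _ (Θ0 (eA.symm a)) (hΘF _) rfl, hpow, map_pow, MulEquiv.apply_symm_apply]

end CfsgLib.Schur
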