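import Cfsg.Agent.Schur.Pullback

/-!
# Lifting projective representations
-/

namespace CfsgLib.Schur

universe u v w

open Matrix (GeneralLinearGroup)
open scoped MatrixGroups

/-- Commutators in pullbacks with finite central extensions of `Q` are determined by the first
coordinate. -/
def PullbackRigid {Γ : Type v} [Group Γ] {Q : Type u} [Group Q] (σ : Γ →* Q) : Prop :=
  ∀ (Y : Type u) [Group Y] [Finite Y] (τ : Y →* Q), Function.Surjective τ →
    τ.ker ≤ Subgroup.center Y →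
      ∀ z : pullback σ τ, z ∈ commutator (pullback σ τ) → (z : Γ × Y).1 = 1 → (z : Γ × Y).2 = 1

theorem pullbackRigid_id {Q : Type u} [Group Q] [Finite Q] (h : Cfsg.HasCyclicSchurMultiplier Q 1) :
    PullbackRigid (MonoidHom.id Q) := by
  intro Y _ _ τ hs hc z hz hz1
  have h2 : z ∈ (pfst (MonoidHom.id Q) τ).ker ⊓ commutator _ := ⟨hz1, hz⟩
  rw [inf_commutator_eq_bot_of_trivial h (pfst (MonoidHom.id Q) τ) (pfst_surjective hs)
    (pfst_ker_le_center hc), Subgroup.mem_bot] at h2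
  simp [h2]

theorem pullbackRigid_cover {Q : Type u} [Group Q] {A : Type w} [CommGroup A]
    (hA : Cfsg.HasSchurMultiplier Q A) {Γ : Type v} [Group Γ] [Finite Γ] {σ : Γ →* Q}
    (hσ : Cfsg.IsStemExtension σ) (hk : Nonempty (σ.ker ≃* A)) : PullbackRigid σ :=
  fun _ _ _ τ hs hc z hz hz1 => cover_pullback hA hσ hk τ hs hc z hz hz1

theorem complex_units_root (n : ℤ) (hn : n ≠ 0) (x : ℂˣ) : ∃ y : ℂˣ, y ^ n = x := by
  obtain ⟨m, rfl | rfl⟩ := Int.eq_nat_or_neg n
  · obtain ⟨z, hz⟩ := IsAlgClosed.exists_pow_nat_eq (x : ℂ) (n := m) (by omega)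
    have hz0 : z ≠ 0 := by
      rintro rfl
      rw [zero_pow (by omega)] at hz
      exact x.ne_zero hz.symm
    exact ⟨Units.mk0 z hz0, Units.ext (by simp [hz])⟩
  · obtain ⟨z, hz⟩ := IsAlgClosed.exists_pow_nat_eq ((x⁻¹ : ℂˣ) : ℂ) (n := m) (by omega)
    have hz0 : z ≠ 0 := by
      rintro rfl
      rw [zero_pow (by omega)] at hz
      exact (x⁻¹).ne_zero hz.symm
    refine ⟨Units.mk0 z hz0, ?_⟩
    rw [zpow_neg, zpow_natCast, inv_eq_iff_eq_inv]
    exact Units.ext (by simp [hz])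

theorem scalar_injective_of_pos {n : ℕ} (hn : 0 < n) :
    Function.Injective (GeneralLinearGroup.scalar (Fin n) : ℂˣ →* GL (Fin n) ℂ) := by
  intro a b h
  apply Units.ext
  have := congrArg (fun g : GL (Fin n) ℂ => (g : Matrix (Fin n) (Fin n) ℂ) ⟨0, hn⟩ ⟨0, hn⟩) h
  simpa [GeneralLinearGroup.scalar, Matrix.scalar_apply] using this

/-- Rigidity implies lifting of projective representations. -/
theorem exists_lift {Γ : Type v} [Group Γ] [Finite Γ] {Q : Type u} [Group Q] [Finite Q] {σ : Γ →* Q}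
    (hσ : σ.ker ≤ Subgroup.center Γ) (hr : PullbackRigid σ) (n : ℕ)
    (γ : Q →* (GL (Fin n) ℂ ⧸ Subgroup.center (GL (Fin n) ℂ))) :
    ∃ ρ : Γ →* GL (Fin n) ℂ,
      (QuotientGroup.mk' (Subgroup.center (GL (Fin n) ℂ))).comp ρ = γ.comp σ := by
  rcases Nat.eq_zero_or_pos n with rfl | hn
  · exact ⟨1, MonoidHom.ext fun x => by
      obtain ⟨g, hg⟩ := QuotientGroup.mk'_surjective _ (γ (σ x))
      rw [MonoidHom.comp_apply, MonoidHom.comp_apply, ← hg]
      congr 1
      exact Subsingleton.elim _ _⟩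
  let π := QuotientGroup.mk' (Subgroup.center (GL (Fin n) ℂ))
  let φ₁ : Q × GL (Fin n) ℂ →* GL (Fin n) ℂ ⧸ Subgroup.center (GL (Fin n) ℂ) := γ.comp (MonoidHom.fst _ _)
  let φ₂ : Q × GL (Fin n) ℂ →* GL (Fin n) ℂ ⧸ Subgroup.center (GL (Fin n) ℂ) := π.comp (MonoidHom.snd _ _)
  let Y : Subgroup (Q × GL (Fin n) ℂ) :=
    φ₁.eqLocus φ₂ ⊓ (GeneralLinearGroup.det.comp (MonoidHom.snd _ _)).ker
  let τ : Y →* Q := (MonoidHom.fst _ _).comp Y.subtype
  have hsc : ∀ g : GL (Fin n) ℂ, g ∈ Subgroup.center (GL (Fin n) ℂ) →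
      ∃ c : ℂˣ, GeneralLinearGroup.scalar (Fin n) c = g := fun g hg => by
    rw [GeneralLinearGroup.center_eq_range_scalar] at hg
    exact hg
  have hτs : Function.Surjective τ := fun q => by
    obtain ⟨g, hg⟩ := QuotientGroup.mk'_surjective _ (γ q)
    obtain ⟨c, hc⟩ := complex_units_root n (by omega) (GeneralLinearGroup.det g)⁻¹
    refine ⟨⟨(q, g * GeneralLinearGroup.scalar (Fin n) c), ?_, ?_⟩, rfl⟩
    · change γ q = π (g * _)
      rw [map_mul, hg]
      refine (mul_eq_left.2 ((QuotientGroup.eq_one_iff _).2 ?_)).symm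
      rw [GeneralLinearGroup.center_eq_range_scalar]
      exact ⟨c, rfl⟩
    · change GeneralLinearGroup.det (g * _) = 1
      rw [map_mul, GeneralLinearGroup.det_scalar, Fintype.card_fin, ← zpow_natCast, hc, mul_inv_cancel]
  have hker2 : ∀ y : Y, y ∈ τ.ker → (y : Q × GL (Fin n) ℂ).2 ∈ Subgroup.center (GL (Fin n) ℂ) := by
    intro y hy
    have h1 : γ (y : Q × GL (Fin n) ℂ).1 = π (y : Q × GL (Fin n) ℂ).2 := y.2.1
    rw [show (y : Q × GL (Fin n) ℂ).1 = 1 from hy, map_one] at h1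
    exact (QuotientGroup.eq_one_iff _).1 h1.symm
  have hτc : τ.ker ≤ Subgroup.center Y := fun y hy => Subgroup.mem_center_iff.2 fun t =>
    Subtype.ext (Prod.ext (by
      change (t : Q × GL (Fin n) ℂ).1 * (y : Q × GL (Fin n) ℂ).1 = (y : Q × GL (Fin n) ℂ).1 * _
      rw [show (y : Q × GL (Fin n) ℂ).1 = 1 from hy, mul_one, one_mul])
      (Subgroup.mem_center_iff.1 (hker2 y hy) _))
  have hscal : ∀ y : τ.ker, ∃ c : ℂˣ,
      GeneralLinearGroup.scalar (Fin n) c = ((y : Y) : Q × GL (Fin n) ℂ).2 := fun y =>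
    hsc _ (hker2 y y.2)
  choose cv hcv using hscal
  let κ : τ.ker →* ℂˣ := MonoidHom.mk' cv fun a b =>
    scalar_injective_of_pos hn (by rw [map_mul, hcv, hcv, hcv]; rfl)
  have hκn : ∀ y, κ y ^ n = 1 := fun y => by
    have h : GeneralLinearGroup.det ((y : Y) : Q × GL (Fin n) ℂ).2 = 1 := (y : Y).2.2
    rw [← hcv y, GeneralLinearGroup.det_scalar, Fintype.card_fin] at h
    exact h
  have : NeZero n := ⟨hn.ne'⟩
  have : Finite τ.ker := by
    refine Finite.of_injective (β := rootsOfUnity n ℂ)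
      (fun y => ⟨κ y, (mem_rootsOfUnity _ _).2 (hκn y)⟩) fun a b h => ?_
    refine Subtype.ext (Subtype.ext (Prod.ext ?_ ?_))
    · exact (a.2 : ((a : Y) : Q × GL (Fin n) ℂ).1 = 1).trans (b.2 : ((b : Y) : Q × GL (Fin n) ℂ).1 = 1).symm
    · rw [← hcv a, ← hcv b]
      exact congrArg _ (congrArg Subtype.val h)
  have : Finite (Y ⧸ τ.ker) :=
    Finite.of_injective (QuotientGroup.kerLift τ) (QuotientGroup.kerLift_injective τ)
  have : Finite Y :=
    Finite.of_equiv ((Y ⧸ τ.ker) × τ.ker) Subgroup.groupEquivQuotientProdSubgroup.symm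
  let P := pullback σ τ
  let p := pfst σ τ
  let r : p.ker →* τ.ker := ((psnd σ τ).comp p.ker.subtype).codRestrict τ.ker fun z => by
    have h := mem_pullback.1 (z : P).2
    rw [show ((z : P) : Γ × Y).1 = 1 from z.2, map_one] at h
    exact h.symm
  let instW : CommGroup p.ker :=
    { (inferInstance : Group p.ker) with
      mul_comm := fun a b => Subtype.ext
        (Subgroup.mem_center_iff.1 (pfst_ker_le_center hτc b.2) (a : P)) }
  let i : p.ker →* Abelianization P := Abelianization.of.comp p.ker.subtype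
  have hi : Function.Injective i := by
    rw [← MonoidHom.ker_eq_bot_iff, eq_bot_iff]
    intro z hz
    have hz' : (z : P) ∈ commutator P := (QuotientGroup.eq_one_iff _).1 hz
    exact Subgroup.mem_bot.2 (Subtype.ext (Subtype.ext (Prod.ext z.2 (hr Y τ hτs hτc z hz' z.2))))
  obtain ⟨θ, hθ⟩ := exists_extension complex_units_root i hi (κ.comp r)
  let N : P →* GL (Fin n) ℂ := MonoidHom.mk'
    (fun z => ((z : Γ × Y).2 : Q × GL (Fin n) ℂ).2 *
      (GeneralLinearGroup.scalar (Fin n) (θ (Abelianization.of z)))⁻¹) fun a b => by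
    have hc : ∀ (x : ℂˣ) (g : GL (Fin n) ℂ), g * (GeneralLinearGroup.scalar (Fin n) x)⁻¹ =
        (GeneralLinearGroup.scalar (Fin n) x)⁻¹ * g := fun x g => by
      refine Subgroup.mem_center_iff.1 (inv_mem ?_) g
      rw [GeneralLinearGroup.center_eq_range_scalar]
      exact ⟨x, rfl⟩
    simp only [map_mul, mul_inv_rev, Subgroup.coe_mul, Prod.snd_mul]
    have e1 := hc (θ (Abelianization.of a))
    have e2 := hc (θ (Abelianization.of b))
    revert e1 e2
    generalize (GeneralLinearGroup.scalar (Fin n) (θ (Abelianization.of a)))⁻¹ = ca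
    generalize (GeneralLinearGroup.scalar (Fin n) (θ (Abelianization.of b)))⁻¹ = cb
    generalize ((a : Γ × Y).2 : Q × GL (Fin n) ℂ).2 = g
    generalize ((b : Γ × Y).2 : Q × GL (Fin n) ℂ).2 = h
    intro e1 e2
    calc g * h * (cb * ca) = g * (h * cb) * ca := by group
      _ = g * (ca * (h * cb)) := by rw [mul_assoc, e1 (h * cb)]
      _ = g * ca * (h * cb) := by group
  have hN : p.ker ≤ N.ker := fun z hz => by
    change ((z : Γ × Y).2 : Q × GL (Fin n) ℂ).2 *
      (GeneralLinearGroup.scalar (Fin n) (θ (i ⟨z, hz⟩)))⁻¹ = 1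
    rw [hθ ⟨z, hz⟩]
    change _ * (GeneralLinearGroup.scalar (Fin n) (cv (r ⟨z, hz⟩)))⁻¹ = 1
    rw [hcv, mul_inv_eq_one]
    rfl
  let ρ := p.liftOfSurjective (pfst_surjective hτs) ⟨N, hN⟩
  refine ⟨ρ, MonoidHom.ext fun x => ?_⟩
  obtain ⟨z, rfl⟩ := pfst_surjective (f := σ) hτs x
  have h1 : ρ (p z) = N z := MonoidHom.liftOfRightInverse_comp_apply p _ _ _ z
  change π (ρ (p z)) = γ (σ (z : Γ × Y).1)
  rw [h1]
  change π (_ * _⁻¹) = _
  rw [map_mul, map_inv]
  have h2 : π (GeneralLinearGroup.scalar (Fin n) (θ (Abelianization.of z))) = 1 := by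
    refine (QuotientGroup.eq_one_iff _).2 ?_
    rw [GeneralLinearGroup.center_eq_range_scalar]
    exact ⟨_, rfl⟩
  rw [h2, inv_one, mul_one, mem_pullback.1 z.2]
  exact ((z : Γ × Y).2.2.1 : γ _ = π _).symm

/-- Lifting of projective representations implies rigidity. -/
theorem rigid_of_lift {Γ : Type v} [Group Γ] [Finite Γ] {Q : Type u} [Group Q] [Finite Q]
    {σ : Γ →* Q}
    (hlift : ∀ (n : ℕ) (γ : Q →* (GL (Fin n) ℂ ⧸ Subgroup.center (GL (Fin n) ℂ))),
      ∃ ρ : Γ →* GL (Fin n) ℂ,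
        (QuotientGroup.mk' (Subgroup.center (GL (Fin n) ℂ))).comp ρ = γ.comp σ) :
    PullbackRigid σ := by
  classical
  intro Y _ _ τ hτs hτc z hz hz1
  have : Fintype Q := Fintype.ofFinite Q
  have ht : (z : Γ × Y).2 ∈ τ.ker := by
    have h := mem_pullback.1 z.2
    rw [hz1, map_one] at h
    exact h.symm
  by_contra hne
  let instW : CommGroup τ.ker :=
    { (inferInstance : Group τ.ker) with
      mul_comm := fun a b => Subtype.ext (Subgroup.mem_center_iff.1 (hτc b.2) (a : Y)) }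
  have : HasEnoughRootsOfUnity ℂ (Monoid.exponent τ.ker) := inferInstance
  obtain ⟨χ, hχ⟩ := CommGroup.exists_apply_ne_one_of_hasEnoughRootsOfUnity τ.ker ℂ
    (a := ⟨_, ht⟩) (fun h => hne (congrArg Subtype.val h))
  have hzY : ∀ k : τ.ker, ∀ g : Y, g * k = k * g := fun k => Subgroup.mem_center_iff.1 (hτc k.2)
  let s := Function.surjInv hτs
  have hs : ∀ q, τ (s q) = q := Function.surjInv_eq hτs
  let k : Y → Q → τ.ker := fun x q => ⟨(s (τ x * q))⁻¹ * x * s q, by
    rw [MonoidHom.mem_ker, map_mul, map_mul, map_inv, hs, hs, mul_assoc, inv_mul_cancel]⟩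
  have hk : ∀ x y q, k (x * y) q = k x (τ y * q) * k y q := fun x y q => Subtype.ext (by
    change (s (τ (x * y) * q))⁻¹ * (x * y) * s q =
      (s (τ x * (τ y * q)))⁻¹ * x * s (τ y * q) * ((s (τ y * q))⁻¹ * y * s q)
    rw [map_mul, mul_assoc (τ x)]
    group)
  let M : Y →* Matrix Q Q ℂ :=
    { toFun := fun x => Matrix.of fun i j => if i = τ x * j then ((χ (k x j) : ℂˣ) : ℂ) else 0
      map_one' := by
        ext i j
        have : k 1 j = 1 := Subtype.ext (by simp [k])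
        simp [Matrix.one_apply, this]
      map_mul' := fun x y => by
        ext i j
        rw [Matrix.mul_apply]
        simp only [Matrix.of_apply, ite_mul, mul_ite, zero_mul, mul_zero]
        rw [Finset.sum_eq_single (τ y * j) (fun b _ hb => by simp [hb]) (fun h => absurd (Finset.mem_univ _) h)]
        simp only [if_true, map_mul, mul_assoc, hk, Units.val_mul]
        }
  have hMk : ∀ t : τ.ker, M (t : Y) = Matrix.scalar Q ((χ t : ℂˣ) : ℂ) := fun t => by
    ext i j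
    have h1 : k t j = t := Subtype.ext (by
      change (s (τ (t : Y) * j))⁻¹ * t * s j = t
      rw [MonoidHom.mem_ker.1 t.2, one_mul, mul_assoc, ← hzY t (s j), inv_mul_cancel_left])
    change (if i = τ (t : Y) * j then ((χ (k t j) : ℂˣ) : ℂ) else 0) = _
    rw [MonoidHom.mem_ker.1 t.2, one_mul, h1, Matrix.scalar_apply, Matrix.diagonal_apply]
  let R : Matrix Q Q ℂ ≃ₐ[ℂ] Matrix (Fin (Fintype.card Q)) (Fin (Fintype.card Q)) ℂ :=
    Matrix.reindexAlgEquiv ℂ ℂ (Fintype.equivFin Q)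
  let MG : Y →* GL (Fin (Fintype.card Q)) ℂ := (R.toRingEquiv.toMonoidHom.comp M).toHomUnits
  have hMG : ∀ t : τ.ker, MG (t : Y) = GeneralLinearGroup.scalar _ (χ t) := fun t => Units.ext (by
    change R (M (t : Y)) = Matrix.scalar _ ((χ t : ℂˣ) : ℂ)
    rw [hMk]
    ext i j
    simp [R, Matrix.scalar_apply, Matrix.diagonal_apply, EmbeddingLike.apply_eq_iff_eq])
  let n := Fintype.card Q
  let π := QuotientGroup.mk' (Subgroup.center (GL (Fin n) ℂ))
  have hker : τ.ker ≤ (π.comp MG).ker := fun t ht => by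
    refine (QuotientGroup.eq_one_iff _).2 ?_
    rw [hMG ⟨t, ht⟩, GeneralLinearGroup.center_eq_range_scalar]
    exact ⟨_, rfl⟩
  obtain ⟨ρ, hρ⟩ := hlift n (τ.liftOfSurjective hτs ⟨π.comp MG, hker⟩)
  have hcen : ∀ y : pullback σ τ, (ρ (y : Γ × Y).1)⁻¹ * MG (y : Γ × Y).2 ∈
      Subgroup.center (GL (Fin n) ℂ) := fun y => by
    rw [← QuotientGroup.eq_one_iff]
    change π ((ρ _)⁻¹ * _) = 1
    rw [map_mul, map_inv, inv_mul_eq_one]
    have h : π (ρ (y : Γ × Y).1) = τ.liftOfSurjective hτs ⟨π.comp MG, hker⟩ (σ (y : Γ × Y).1) :=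
      DFunLike.congr_fun hρ (y : Γ × Y).1
    rw [h, mem_pullback.1 y.2]
    exact MonoidHom.liftOfRightInverse_comp_apply τ _ _ _ _
  let c : pullback σ τ →* GL (Fin n) ℂ := MonoidHom.mk'
    (fun y => (ρ (y : Γ × Y).1)⁻¹ * MG (y : Γ × Y).2) fun a b => by
    simp only [Subgroup.coe_mul, Prod.fst_mul, Prod.snd_mul, map_mul, mul_inv_rev]
    have h := Subgroup.mem_center_iff.1 (hcen a) (ρ (b : Γ × Y).1)⁻¹
    calc (ρ (b : Γ × Y).1)⁻¹ * (ρ (a : Γ × Y).1)⁻¹ * (MG (a : Γ × Y).2 * MG (b : Γ × Y).2)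
        = (ρ (b : Γ × Y).1)⁻¹ * ((ρ (a : Γ × Y).1)⁻¹ * MG (a : Γ × Y).2) * MG (b : Γ × Y).2 := by group
      _ = ((ρ (a : Γ × Y).1)⁻¹ * MG (a : Γ × Y).2) * (ρ (b : Γ × Y).1)⁻¹ * MG (b : Γ × Y).2 := by rw [h]
      _ = _ := by group
  have hc : c z = 1 := by
    have : commutator (pullback σ τ) ≤ c.ker := by
      rw [commutator_def, Subgroup.commutator_le]
      intro a _ b _
      rw [MonoidHom.mem_ker, map_commutatorElement, commutatorElement_eq_one_iff_mul_comm]
      exact Subgroup.mem_center_iff.1 (hcen b) _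
    exact MonoidHom.mem_ker.1 (this hz)
  change (ρ (z : Γ × Y).1)⁻¹ * MG (z : Γ × Y).2 = 1 at hc
  rw [hz1, map_one, inv_one, one_mul, hMG ⟨_, ht⟩] at hc
  exact hχ (scalar_injective_of_pos Fintype.card_pos (hc.trans (map_one _).symm))

end CfsgLib.Schur
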