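import Cfsg.Agent.Schur.Pullback

/-!
# Every stem extension is a quotient of a cover
-/

namespace CfsgLib.Schur

universe u v w

/-- The twisted product, mapped onto a given extension. -/
theorem exists_stem_of_twist_map {P : Type u} {Q : Type u} [Group P] [Group Q] [Finite P] (φ : P →* Q)
    (hs : Function.Surjective φ) (hc : φ.ker ≤ Subgroup.center P) {C D : Type u} [CommGroup C]
    [CommGroup D] (q : C →* D) (hq : Function.Surjective q) (e : φ.ker →* C)
    (he : Function.Injective e) (θ : P →* D) (hθ : ∀ w : φ.ker, θ (w : P) = q (e w))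
    (hker : ∀ c, q c = 1 → ∃ t : φ.ker, (t : P) ∈ commutator P ∧ e t = c)
    {Δ : Type u} [Group Δ] (τ : Δ →* Q) (g : P →* Δ) (hg : τ.comp g = φ) (ω : C →* Δ)
    (hωc : ∀ c y, y * ω c = ω c * y) (hωτ : ∀ c, τ (ω c) = 1) (hω : ∀ w : φ.ker, ω (e w) = g (w : P))
    (hgs : τ.ker ≤ (commutator P).map g) :
    ∃ (Γ : Type u) (_ : Group Γ) (_ : Finite Γ) (σ : Γ →* Q), Cfsg.IsStemExtension σ ∧
      Nonempty (σ.ker ≃* ↥(φ.ker ⊓ commutator P)) ∧
      ∃ β : Γ →* Δ, Function.Surjective β ∧ τ.comp β = σ := by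
  have : Finite Q := Finite.of_surjective φ hs
  let χ : P × C →* D := (θ.comp (MonoidHom.fst P C)) * (q.comp (MonoidHom.snd P C))
  let H := χ.ker
  let d : φ.ker →* P × C := MonoidHom.prod φ.ker.subtype e⁻¹
  have hd : ∀ w, d w ∈ H := fun w => by
    change θ (w : P) * q (e w)⁻¹ = 1
    rw [hθ w, map_inv, mul_inv_cancel]
  let d' : φ.ker →* H := d.codRestrict H hd
  have hdc : d'.range ≤ Subgroup.center H := by
    rintro x ⟨w, rfl⟩
    exact Subgroup.mem_center_iff.2 fun g =>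
      Subtype.ext (Prod.ext (Subgroup.mem_center_iff.1 (hc w.2) _) (mul_comm _ _))
  have hdn : d'.range.Normal := ⟨fun x hx g => by
    rw [Subgroup.mem_center_iff.1 (hdc hx) g, mul_inv_cancel_right]; exact hx⟩
  let fst : H →* P := (MonoidHom.fst P C).comp H.subtype
  let snd : H →* C := (MonoidHom.snd P C).comp H.subtype
  have hp : d'.range ≤ (φ.comp fst).ker := by
    rintro x ⟨w, rfl⟩
    exact MonoidHom.mem_ker.2 (MonoidHom.mem_ker.1 w.2)
  let σ : H ⧸ d'.range →* Q := QuotientGroup.lift d'.range (φ.comp fst) hp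
  have hlift : Function.Surjective fst := by
    intro x
    obtain ⟨c, hc'⟩ := hq (θ x)⁻¹
    refine ⟨⟨(x, c), ?_⟩, rfl⟩
    change θ x * q c = 1
    rw [hc', mul_inv_cancel]
  have hsσ : Function.Surjective σ := fun y => by
    obtain ⟨x, rfl⟩ := hs y
    obtain ⟨h, hh⟩ := hlift x
    exact ⟨(h : H ⧸ d'.range), congrArg φ hh⟩
  have hθc : ∀ x ∈ commutator P, θ x = 1 :=
    fun x hx => MonoidHom.mem_ker.1 (Abelianization.commutator_subset_ker θ hx)
  have hTmem : ∀ t : ↥(φ.ker ⊓ commutator P), ((t : P), (1 : C)) ∈ H := by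
    intro t
    change θ (t : P) * q 1 = 1
    rw [map_one, mul_one, hθc _ t.2.2]
  let j0 : ↥(φ.ker ⊓ commutator P) →* H :=
    (MonoidHom.prod (φ.ker ⊓ commutator P).subtype 1).codRestrict H hTmem
  let j : ↥(φ.ker ⊓ commutator P) →* σ.ker :=
    ((QuotientGroup.mk' d'.range).comp j0).codRestrict σ.ker fun t => MonoidHom.mem_ker.2 t.2.1
  have hj : Function.Bijective j := by
    constructor
    · rw [← MonoidHom.ker_eq_bot_iff, eq_bot_iff]
      intro t ht
      have ht' : ((j0 t : H) : H ⧸ d'.range) = 1 := congrArg Subtype.val (MonoidHom.mem_ker.1 ht)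
      obtain ⟨w, hw⟩ := (QuotientGroup.eq_one_iff _).1 ht'
      have h1 : (e w)⁻¹ = 1 := congrArg snd hw
      have h2 : (w : P) = (t : P) := congrArg fst hw
      have h3 : w = 1 := he (by rw [map_one]; exact inv_eq_one.1 h1)
      refine Subgroup.mem_bot.2 (Subtype.ext ?_)
      rw [← h2, h3]
      rfl
    · rintro ⟨x, hx⟩
      obtain ⟨⟨⟨z, c⟩, hzc⟩, rfl⟩ := QuotientGroup.mk'_surjective _ x
      have hz : z ∈ φ.ker := hx
      have h1 : q (e ⟨z, hz⟩ * c) = 1 := by
        rw [map_mul, ← hθ ⟨z, hz⟩]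
        exact hzc
      obtain ⟨t, ht, htc⟩ := hker _ h1
      refine ⟨⟨(t : P), t.2, ht⟩, Subtype.ext ?_⟩
      refine QuotientGroup.eq.2 ⟨t⁻¹ * ⟨z, hz⟩, Subtype.ext (Prod.ext rfl ?_)⟩
      change (e (t⁻¹ * ⟨z, hz⟩))⁻¹ = 1⁻¹ * c
      rw [inv_one, one_mul, map_mul, map_inv, mul_inv, inv_inv, htc, mul_right_comm, mul_inv_cancel,
        one_mul]
  let jE := MulEquiv.ofBijective j hj
  have : Finite σ.ker := Finite.of_equiv _ jE.toEquiv
  have : Finite ((H ⧸ d'.range) ⧸ σ.ker) :=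
    Finite.of_injective (QuotientGroup.kerLift σ) (QuotientGroup.kerLift_injective σ)
  have : Finite (H ⧸ d'.range) :=
    Finite.of_equiv (((H ⧸ d'.range) ⧸ σ.ker) × σ.ker) Subgroup.groupEquivQuotientProdSubgroup.symm
  have hstem : Cfsg.IsStemExtension σ := by
    refine ⟨hsσ, fun x hx => ?_, fun x hx => ?_⟩
    · obtain ⟨t, ht⟩ := hj.2 ⟨x, hx⟩
      obtain rfl : QuotientGroup.mk' d'.range (j0 t) = x := congrArg Subtype.val ht
      refine Subgroup.mem_center_iff.2 fun y => ?_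
      obtain ⟨h, rfl⟩ := QuotientGroup.mk'_surjective _ y
      rw [← map_mul, ← map_mul]
      congr 1
      exact Subtype.ext (Prod.ext (Subgroup.mem_center_iff.1 (hc t.2.1) _) (mul_comm _ _))
    · obtain ⟨t, ht⟩ := hj.2 ⟨x, hx⟩
      obtain rfl : QuotientGroup.mk' d'.range (j0 t) = x := congrArg Subtype.val ht
      have hmap : (commutator H).map fst = commutator P := by
        rw [commutator_def, commutator_def, Subgroup.map_commutator,
          Subgroup.map_top_of_surjective _ hlift]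
      have htmem : (t : P) ∈ (commutator H).map fst := by rw [hmap]; exact t.2.2
      obtain ⟨h, hh, hht⟩ := Subgroup.mem_map.1 htmem
      have h2 : snd h = 1 := MonoidHom.mem_ker.1 (Abelianization.commutator_subset_ker snd hh)
      have : j0 t = h := Subtype.ext (Prod.ext hht.symm h2.symm)
      rw [this]
      have hle : (commutator H).map (QuotientGroup.mk' d'.range) ≤ commutator (H ⧸ d'.range) := by
        rw [commutator_def, commutator_def, Subgroup.map_commutator]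
        exact Subgroup.commutator_mono le_top le_top
      exact hle (Subgroup.mem_map_of_mem _ hh)
  let B0 : H →* Δ := MonoidHom.mk' (fun h => g (fst h) * ω (snd h)) fun h k => by
    rw [map_mul fst, map_mul snd, map_mul g, map_mul ω, mul_assoc, ← mul_assoc (g (fst k)) (ω (snd h)),
      hωc (snd h) (g (fst k))]
    group
  have hB0 : d'.range ≤ B0.ker := by
    rintro x ⟨w, rfl⟩
    refine MonoidHom.mem_ker.2 ?_
    change g (w : P) * ω (e w)⁻¹ = 1
    rw [map_inv, hω, mul_inv_cancel]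
  let β : H ⧸ d'.range →* Δ := QuotientGroup.lift d'.range B0 hB0
  have hβσ : τ.comp β = σ := by
    refine MonoidHom.ext fun x => ?_
    obtain ⟨h, rfl⟩ := QuotientGroup.mk'_surjective _ x
    change τ (g (fst h) * ω (snd h)) = φ (fst h)
    rw [map_mul, hωτ, mul_one, ← hg]
    rfl
  refine ⟨H ⧸ d'.range, inferInstance, inferInstance, σ, hstem, ⟨jE.symm⟩, β, fun y => ?_, hβσ⟩
  obtain ⟨x, hx⟩ := hsσ (τ y)
  obtain ⟨p, hp', hpy⟩ := Subgroup.mem_map.1 (hgs (show (β x)⁻¹ * y ∈ τ.ker by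
    rw [MonoidHom.mem_ker, map_mul, map_inv, ← MonoidHom.comp_apply, hβσ, hx, inv_mul_cancel]))
  have hm : (p, (1 : C)) ∈ H := by
    change θ p * q 1 = 1
    rw [map_one, mul_one, hθc _ hp']
  refine ⟨x * QuotientGroup.mk' d'.range ⟨(p, 1), hm⟩, ?_⟩
  rw [map_mul]
  change β x * (g p * ω 1) = y
  rw [map_one, mul_one, hpy, mul_inv_cancel_left]

theorem exists_cover_onto {Q : Type u} [Group Q] {A : Type v} [CommGroup A]
    (hA : Cfsg.HasSchurMultiplier Q A) {Δ : Type u} [Group Δ] [Finite Δ] (τ : Δ →* Q)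
    (hτ : Cfsg.IsStemExtension τ) :
    ∃ (Γ : Type u) (_ : Group Γ) (_ : Finite Γ) (σ : Γ →* Q), Cfsg.IsStemExtension σ ∧
      Nonempty (σ.ker ≃* A) ∧ ∃ β : Γ →* Δ, Function.Surjective β ∧ τ.comp β = σ := by
  classical
  obtain ⟨⟨X, _, _, σ, hσ, ⟨eA⟩⟩, -⟩ := id hA
  let P := pullback σ τ
  let φ : P →* Q := σ.comp (pfst σ τ)
  have hφs : Function.Surjective φ := hσ.1.comp (pfst_surjective hτ.1)
  have hc : φ.ker ≤ Subgroup.center P := base_ker_le_center hσ.2.1 hτ.2.1
  let instC : CommGroup σ.ker :=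
    { (inferInstance : Group σ.ker) with
      mul_comm := fun a b => Subtype.ext ((Subgroup.mem_center_iff.1 (hσ.2.1 a.2) (b : X)).symm) }
  let instD : CommGroup τ.ker :=
    { (inferInstance : Group τ.ker) with
      mul_comm := fun a b => Subtype.ext ((Subgroup.mem_center_iff.1 (hτ.2.1 a.2) (b : Δ)).symm) }
  let instK : CommGroup φ.ker :=
    { (inferInstance : Group φ.ker) with
      mul_comm := fun a b => Subtype.ext ((Subgroup.mem_center_iff.1 (hc a.2) (b : P)).symm) }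
  let k1 : φ.ker →* σ.ker := ((pfst σ τ).comp φ.ker.subtype).codRestrict σ.ker fun w => w.2
  let k2 : φ.ker →* τ.ker := ((psnd σ τ).comp φ.ker.subtype).codRestrict τ.ker fun w =>
    MonoidHom.mem_ker.2 ((mem_pullback.1 (w : P).2).symm.trans (MonoidHom.mem_ker.1 w.2))
  let e : φ.ker →* τ.ker × Hull σ.ker := MonoidHom.prod k2 ((toHull σ.ker).comp k1)
  have he : Function.Injective e := fun a b h => by
    have h2 : k2 a = k2 b := congrArg Prod.fst h
    have h1 : k1 a = k1 b := toHull_injective σ.ker (congrArg Prod.snd h)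
    exact Subtype.ext (Subtype.ext (Prod.ext (congrArg Subtype.val h1) (congrArg Subtype.val h2)))
  let T : Subgroup φ.ker := (commutator P).subgroupOf φ.ker
  let N : Subgroup (τ.ker × Hull σ.ker) := T.map e
  have hk2 : ∀ y : τ.ker, ∃ w ∈ T, k2 w = y := fun y => by
    obtain ⟨a, ha, hay⟩ := exists_mem_commutator_lift (psnd σ τ) (psnd_surjective hσ.1) (hτ.2.2 y.2)
    have ha' : a ∈ φ.ker := MonoidHom.mem_ker.2 ((mem_pullback.1 a.2).trans
      ((congrArg τ hay).trans (MonoidHom.mem_ker.1 y.2)))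
    exact ⟨⟨a, ha'⟩, Subgroup.mem_subgroupOf.2 ha, Subtype.ext hay⟩
  have hroots : ∀ n : ℤ, n ≠ 0 → ∀ x : (τ.ker × Hull σ.ker) ⧸ N, ∃ y, y ^ n = x := by
    intro n hn x
    obtain ⟨⟨a, b⟩, rfl⟩ := QuotientGroup.mk'_surjective N x
    obtain ⟨w, hw, hwa⟩ := hk2 a
    obtain ⟨y, hy⟩ := hull_root n hn ((e w).2⁻¹ * b)
    refine ⟨QuotientGroup.mk' N (1, y), ?_⟩
    rw [← map_zpow]
    refine QuotientGroup.eq.2 ⟨w, hw, Prod.ext ?_ ?_⟩
    · change k2 w = ((1 : τ.ker) ^ n)⁻¹ * a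
      rw [one_zpow, inv_one, one_mul, hwa]
    · change (e w).2 = (y ^ n)⁻¹ * b
      rw [hy, mul_inv_rev, inv_inv, mul_right_comm, inv_mul_cancel, one_mul]
  let i : φ.ker ⧸ T →* Abelianization P := QuotientGroup.lift T (Abelianization.of.comp φ.ker.subtype)
    (fun w hw => MonoidHom.mem_ker.2 ((QuotientGroup.eq_one_iff _).2 (Subgroup.mem_subgroupOf.1 hw)))
  have hi : Function.Injective i := by
    rw [← MonoidHom.ker_eq_bot_iff, eq_bot_iff]
    intro x hx
    obtain ⟨w, rfl⟩ := QuotientGroup.mk'_surjective T x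
    exact Subgroup.mem_bot.2 ((QuotientGroup.eq_one_iff w).2
      (Subgroup.mem_subgroupOf.2 ((QuotientGroup.eq_one_iff (w : P)).1 (MonoidHom.mem_ker.1 hx))))
  obtain ⟨θ, hθ⟩ := exists_extension hroots i hi
    (QuotientGroup.map T N e (fun w hw => Subgroup.mem_map_of_mem _ hw))
  obtain ⟨Γ, _, _, σ', hσ', ⟨eK⟩, β, hβ, hβσ⟩ := exists_stem_of_twist_map φ hφs hc
    (QuotientGroup.mk' N) (QuotientGroup.mk'_surjective N) e he (θ.comp Abelianization.of)
    (fun w => hθ (QuotientGroup.mk' T w))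
    (fun c hc => by
      obtain ⟨t, ht, htc⟩ := Subgroup.mem_map.1 ((QuotientGroup.eq_one_iff c).1 hc)
      exact ⟨t, Subgroup.mem_subgroupOf.1 ht, htc⟩)
    τ (psnd σ τ) (MonoidHom.ext fun p => (mem_pullback.1 p.2).symm)
    (τ.ker.subtype.comp (MonoidHom.fst τ.ker (Hull σ.ker)))
    (fun c y => Subgroup.mem_center_iff.1 (hτ.2.1 c.1.2) y) (fun c => c.1.2) (fun w => rfl)
    (fun y hy => by rw [map_commutator_surjective (psnd σ τ) (psnd_surjective hσ.1)]; exact hτ.2.2 hy)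
  refine ⟨Γ, inferInstance, inferInstance, σ', hσ', ?_, β, hβ, hβσ⟩
  let p : ↥(φ.ker ⊓ commutator P) →* σ.ker :=
    ((pfst σ τ).comp (φ.ker ⊓ commutator P).subtype).codRestrict σ.ker fun t => t.2.1
  have hp : Function.Bijective p := by
    refine ⟨(injective_iff_map_eq_one p).2 fun t ht => ?_, fun s => ?_⟩
    · have h1 : ((t : P) : X × Δ).1 = 1 := congrArg Subtype.val ht
      exact Subtype.ext (Subtype.ext (Prod.ext h1 (cover_pullback hA hσ ⟨eA⟩ τ hτ.1 hτ.2.1 _ t.2.2 h1)))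
    · obtain ⟨y, hy, hys⟩ := exists_mem_commutator_lift (pfst σ τ) (pfst_surjective hτ.1) (hσ.2.2 s.2)
      refine ⟨⟨y, MonoidHom.mem_ker.2 ?_, hy⟩, Subtype.ext hys⟩
      change σ (pfst σ τ y) = 1
      rw [hys]
      exact MonoidHom.mem_ker.1 s.2
  exact ⟨eK.trans ((MulEquiv.ofBijective p hp).trans eA)⟩

end CfsgLib.Schur
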