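import Cfsg.Agent.Schur.Stemify
import Mathlib

/-!
# The multiplier of a direct product
-/

namespace CfsgLib.Schur

universe u v w

open scoped commutatorElement TensorProduct

variable {Q₁ : Type u} {Q₂ : Type v} [Group Q₁] [Group Q₂]

/-- The tensor product of the abelianizations. -/
abbrev AbTensor (Q₁ : Type u) (Q₂ : Type v) [Group Q₁] [Group Q₂] : Type (max u v) :=
  Additive (Abelianization Q₁) ⊗[ℤ] Additive (Abelianization Q₂)

theorem finite_abTensor [Finite Q₁] [Finite Q₂] : Finite (AbTensor Q₁ Q₂) := by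
  haveI : Module.Finite ℤ (Additive (Abelianization Q₁)) := Module.Finite.of_finite
  haveI : Module.Finite ℤ (Additive (Abelianization Q₂)) := Module.Finite.of_finite
  haveI : AddGroup.FG (AbTensor Q₁ Q₂) := Module.Finite.iff_addGroup_fg.1 (Module.Finite.tensorProduct ℤ _ _)
  refine AddCommGroup.finite_of_fg_isAddTorsion _ fun x => ?_
  refine isOfFinAddOrder_iff_nsmul_eq_zero.2 ⟨Nat.card (Abelianization Q₁), Nat.card_pos, ?_⟩
  induction x using TensorProduct.induction_on with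
  | zero => simp
  | tmul a b =>
    rw [TensorProduct.smul_tmul']
    have : Nat.card (Abelianization Q₁) • a = 0 := card_nsmul_eq_zero' (G := Additive (Abelianization Q₁)) (x := a)
    rw [this, TensorProduct.zero_tmul]
  | add a b ha hb => rw [smul_add, ha, hb, add_zero]

/-- The class of an element in the abelianization, additively. -/
def abClass {Q : Type u} [Group Q] (x : Q) : Additive (Abelianization Q) :=
  Additive.ofMul (Abelianization.of x)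

theorem abClass_mul {Q : Type u} [Group Q] (x y : Q) : abClass (x * y) = abClass x + abClass y :=
  congrArg Additive.ofMul (map_mul Abelianization.of x y)

theorem abClass_one {Q : Type u} [Group Q] : abClass (1 : Q) = 0 :=
  congrArg Additive.ofMul (map_one Abelianization.of)

section Twist

variable {Γ₁ : Type u} {Γ₂ : Type v} [Group Γ₁] [Group Γ₂]

/-- Two groups and a bilinear cocycle. -/
structure TwistProd (σ₁ : Γ₁ →* Q₁) (σ₂ : Γ₂ →* Q₂) where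
  a : Γ₁
  b : Γ₂
  z : AbTensor Q₁ Q₂

variable (σ₁ : Γ₁ →* Q₁) (σ₂ : Γ₂ →* Q₂)

theorem TwistProd.ext' {x y : TwistProd σ₁ σ₂} (ha : x.a = y.a) (hb : x.b = y.b) (hz : x.z = y.z) : x = y := by
  cases x; cases y; simp_all

noncomputable instance : Mul (TwistProd σ₁ σ₂) :=
  ⟨fun x y => ⟨x.a * y.a, x.b * y.b, x.z + y.z + abClass (σ₁ x.a) ⊗ₜ[ℤ] abClass (σ₂ y.b)⟩⟩

noncomputable instance : One (TwistProd σ₁ σ₂) := ⟨⟨1, 1, 0⟩⟩

noncomputable instance : Inv (TwistProd σ₁ σ₂) :=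
  ⟨fun x => ⟨x.a⁻¹, x.b⁻¹, -x.z - abClass (σ₁ x.a⁻¹) ⊗ₜ[ℤ] abClass (σ₂ x.b)⟩⟩

theorem TwistProd.mul_a (x y : TwistProd σ₁ σ₂) : (x * y).a = x.a * y.a := rfl
theorem TwistProd.mul_b (x y : TwistProd σ₁ σ₂) : (x * y).b = x.b * y.b := rfl
theorem TwistProd.mul_z (x y : TwistProd σ₁ σ₂) :
    (x * y).z = x.z + y.z + abClass (σ₁ x.a) ⊗ₜ[ℤ] abClass (σ₂ y.b) := rfl

noncomputable instance : Group (TwistProd σ₁ σ₂) :=
  Group.ofLeftAxioms
    (fun x y z => TwistProd.ext' σ₁ σ₂ (mul_assoc _ _ _) (mul_assoc _ _ _) (by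
      simp only [TwistProd.mul_z, TwistProd.mul_a, TwistProd.mul_b, map_mul, abClass_mul,
        TensorProduct.add_tmul, TensorProduct.tmul_add]
      abel))
    (fun x => TwistProd.ext' σ₁ σ₂ (one_mul _) (one_mul _) (by
      rw [TwistProd.mul_z]
      change 0 + x.z + abClass (σ₁ 1) ⊗ₜ[ℤ] abClass (σ₂ x.b) = x.z
      rw [map_one, abClass_one, TensorProduct.zero_tmul, add_zero, zero_add]))
    (fun x => TwistProd.ext' σ₁ σ₂ (inv_mul_cancel _) (inv_mul_cancel _) (by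
      rw [TwistProd.mul_z]
      change -x.z - abClass (σ₁ x.a⁻¹) ⊗ₜ[ℤ] abClass (σ₂ x.b) + x.z +
        abClass (σ₁ x.a⁻¹) ⊗ₜ[ℤ] abClass (σ₂ x.b) = 0
      abel))

/-- The projection onto the product. -/
noncomputable def twistHom : TwistProd σ₁ σ₂ →* Q₁ × Q₂ :=
  MonoidHom.mk' (fun x => (σ₁ x.a, σ₂ x.b)) fun x y => Prod.ext (map_mul σ₁ _ _) (map_mul σ₂ _ _)

theorem exists_product_cover [Finite Q₁] [Finite Q₂] [Finite Γ₁] [Finite Γ₂] (h₁ : Cfsg.IsStemExtension σ₁)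
    (h₂ : Cfsg.IsStemExtension σ₂) {A B : Type w} [CommGroup A] [CommGroup B] (eA : σ₁.ker ≃* A) (eB : σ₂.ker ≃* B) :
    ∃ (Γ : Type (max u v)) (_ : Group Γ) (_ : Finite Γ) (σ : Γ →* Q₁ × Q₂), Cfsg.IsStemExtension σ ∧
      Nonempty (σ.ker ≃* (A × B × Multiplicative (AbTensor Q₁ Q₂))) := by
  haveI := finite_abTensor (Q₁ := Q₁) (Q₂ := Q₂)
  haveI : Finite (TwistProd σ₁ σ₂) := Finite.of_injective (fun x => (x.a, x.b, x.z))
    fun x y h => TwistProd.ext' σ₁ σ₂ (congrArg Prod.fst h) (congrArg (fun t => t.2.1) h) (congrArg (fun t => t.2.2) h)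
  let ia : Γ₁ →* TwistProd σ₁ σ₂ := MonoidHom.mk' (fun a => ⟨a, 1, 0⟩) fun a a' =>
    TwistProd.ext' σ₁ σ₂ rfl (mul_one _).symm (by
      rw [TwistProd.mul_z]
      change (0 : AbTensor Q₁ Q₂) = 0 + 0 + abClass (σ₁ a) ⊗ₜ[ℤ] abClass (σ₂ 1)
      rw [map_one, abClass_one, TensorProduct.tmul_zero, add_zero, add_zero])
  let ib : Γ₂ →* TwistProd σ₁ σ₂ := MonoidHom.mk' (fun b => ⟨1, b, 0⟩) fun b b' =>
    TwistProd.ext' σ₁ σ₂ (mul_one _).symm rfl (by
      rw [TwistProd.mul_z]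
      change (0 : AbTensor Q₁ Q₂) = 0 + 0 + abClass (σ₁ 1) ⊗ₜ[ℤ] abClass (σ₂ b')
      rw [map_one, abClass_one, TensorProduct.zero_tmul, add_zero, add_zero])
  let iz : Multiplicative (AbTensor Q₁ Q₂) →* TwistProd σ₁ σ₂ := MonoidHom.mk' (fun t => ⟨1, 1, t.toAdd⟩) fun t t' =>
    TwistProd.ext' σ₁ σ₂ (mul_one _).symm (mul_one _).symm (by
      rw [TwistProd.mul_z]
      change t.toAdd + t'.toAdd = t.toAdd + t'.toAdd + abClass (σ₁ 1) ⊗ₜ[ℤ] abClass (σ₂ 1)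
      rw [map_one, abClass_one, TensorProduct.zero_tmul, add_zero])
  have hmapA : ∀ c ∈ commutator Γ₁, ia c ∈ commutator (TwistProd σ₁ σ₂) := by
    intro c hc
    have h : (commutator Γ₁).map ia ≤ commutator (TwistProd σ₁ σ₂) := by
      rw [commutator_def, commutator_def, Subgroup.map_commutator]
      exact Subgroup.commutator_mono le_top le_top
    exact h (Subgroup.mem_map_of_mem _ hc)
  have hmapB : ∀ c ∈ commutator Γ₂, ib c ∈ commutator (TwistProd σ₁ σ₂) := by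
    intro c hc
    have h : (commutator Γ₂).map ib ≤ commutator (TwistProd σ₁ σ₂) := by
      rw [commutator_def, commutator_def, Subgroup.map_commutator]
      exact Subgroup.commutator_mono le_top le_top
    exact h (Subgroup.mem_map_of_mem _ hc)
  have hz : ∀ t : AbTensor Q₁ Q₂, iz (Multiplicative.ofAdd t) ∈ commutator (TwistProd σ₁ σ₂) := by
    intro t
    induction t using TensorProduct.induction_on with
    | zero => rw [ofAdd_zero, map_one]; exact Subgroup.one_mem _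
    | tmul x y =>
      obtain ⟨q, rfl⟩ : ∃ q, abClass q = x := by
        obtain ⟨q, hq⟩ := QuotientGroup.mk_surjective (Additive.toMul x)
        exact ⟨q, congrArg Additive.ofMul hq⟩
      obtain ⟨r, rfl⟩ : ∃ r, abClass r = y := by
        obtain ⟨r, hr⟩ := QuotientGroup.mk_surjective (Additive.toMul y)
        exact ⟨r, congrArg Additive.ofMul hr⟩
      obtain ⟨a, rfl⟩ := h₁.1 q
      obtain ⟨b, rfl⟩ := h₂.1 r
      have key : ia a * ib b = iz (Multiplicative.ofAdd (abClass (σ₁ a) ⊗ₜ[ℤ] abClass (σ₂ b))) * (ib b * ia a) := by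
        refine TwistProd.ext' σ₁ σ₂ ?_ ?_ ?_
        · change a * 1 = 1 * (1 * a); simp
        · change 1 * b = 1 * (b * 1); simp
        · rw [TwistProd.mul_z, TwistProd.mul_z, TwistProd.mul_z]
          change (0 : AbTensor Q₁ Q₂) + 0 + abClass (σ₁ a) ⊗ₜ[ℤ] abClass (σ₂ b) =
            abClass (σ₁ a) ⊗ₜ[ℤ] abClass (σ₂ b) + (0 + 0 + abClass (σ₁ 1) ⊗ₜ[ℤ] abClass (σ₂ 1)) +
              abClass (σ₁ 1) ⊗ₜ[ℤ] abClass (σ₂ (b * 1))
          simp [abClass_one]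
      have : iz (Multiplicative.ofAdd (abClass (σ₁ a) ⊗ₜ[ℤ] abClass (σ₂ b))) = ⁅ia a, ib b⁆ := by
        rw [commutatorElement_def, key]; group
      rw [this]
      exact Subgroup.commutator_mem_commutator (Subgroup.mem_top _) (Subgroup.mem_top _)
    | add x y hx hy => rw [ofAdd_add, map_mul]; exact Subgroup.mul_mem _ hx hy
  have hdec : ∀ x : TwistProd σ₁ σ₂, σ₁ x.a = 1 → x = ia x.a * (ib x.b * iz (Multiplicative.ofAdd x.z)) := by
    intro x ha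
    refine TwistProd.ext' σ₁ σ₂ ?_ ?_ ?_
    · change x.a = x.a * (1 * 1); simp
    · change x.b = 1 * (x.b * 1); simp
    · rw [TwistProd.mul_z, TwistProd.mul_z]
      change x.z = 0 + (0 + x.z + abClass (σ₁ 1) ⊗ₜ[ℤ] abClass (σ₂ 1)) + abClass (σ₁ x.a) ⊗ₜ[ℤ] abClass (σ₂ (x.b * 1))
      simp [abClass_one, ha]
  have hk : ∀ x : TwistProd σ₁ σ₂, x ∈ (twistHom σ₁ σ₂).ker → σ₁ x.a = 1 ∧ σ₂ x.b = 1 :=
    fun x hx => ⟨congrArg Prod.fst hx, congrArg Prod.snd hx⟩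
  refine ⟨TwistProd σ₁ σ₂, inferInstance, inferInstance, twistHom σ₁ σ₂, ⟨?_, ?_, ?_⟩, ⟨?_⟩⟩
  · rintro ⟨q, r⟩
    obtain ⟨a, rfl⟩ := h₁.1 q
    obtain ⟨b, rfl⟩ := h₂.1 r
    exact ⟨⟨a, b, 0⟩, rfl⟩
  · intro x hx
    obtain ⟨ha, hb⟩ := hk x hx
    refine Subgroup.mem_center_iff.2 fun y => TwistProd.ext' σ₁ σ₂
      (Subgroup.mem_center_iff.1 (h₁.2.1 ha) _) (Subgroup.mem_center_iff.1 (h₂.2.1 hb) _) ?_
    rw [TwistProd.mul_z, TwistProd.mul_z, ha, hb, abClass_one, abClass_one, TensorProduct.tmul_zero, TensorProduct.zero_tmul,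
      add_comm x.z y.z]
  · intro x hx
    obtain ⟨ha, hb⟩ := hk x hx
    rw [hdec x ha]
    exact Subgroup.mul_mem _ (hmapA _ (h₁.2.2 ha)) (Subgroup.mul_mem _ (hmapB _ (h₂.2.2 hb)) (hz _))
  · refine
      { toFun := fun x => (eA ⟨x.1.a, (hk x.1 x.2).1⟩, eB ⟨x.1.b, (hk x.1 x.2).2⟩, Multiplicative.ofAdd x.1.z)
        invFun := fun t => ⟨⟨eA.symm t.1, eB.symm t.2.1, t.2.2.toAdd⟩,
          MonoidHom.mem_ker.2 (Prod.ext (eA.symm t.1).2 (eB.symm t.2.1).2)⟩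
        left_inv := fun x => Subtype.ext (TwistProd.ext' σ₁ σ₂ (congrArg Subtype.val (eA.symm_apply_apply _))
          (congrArg Subtype.val (eB.symm_apply_apply _)) rfl)
        right_inv := fun t => Prod.ext (eA.apply_symm_apply _) (Prod.ext (eB.apply_symm_apply _) rfl)
        map_mul' := fun x y => Prod.ext ?_ (Prod.ext ?_ ?_) }
    · rw [Prod.fst_mul, ← map_mul]; rfl
    · rw [Prod.snd_mul, Prod.fst_mul, ← map_mul]; rfl
    · refine congrArg Multiplicative.ofAdd ?_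
      change x.1.z + y.1.z + abClass (σ₁ x.1.a) ⊗ₜ[ℤ] abClass (σ₂ y.1.b) = x.1.z + y.1.z
      rw [(hk x.1 x.2).1, abClass_one, TensorProduct.zero_tmul, add_zero]

end Twist

theorem exists_surj_product [Finite Q₁] [Finite Q₂] {A B : Type w} [CommGroup A] [CommGroup B]
    (hA : Cfsg.HasSchurMultiplier Q₁ A) (hB : Cfsg.HasSchurMultiplier Q₂ B)
    {Δ : Type (max u v)} [Group Δ] [Finite Δ] (τ : Δ →* Q₁ × Q₂) (hτ : Cfsg.IsStemExtension τ) :
    ∃ π : A × B × Multiplicative (AbTensor Q₁ Q₂) →* τ.ker, Function.Surjective π := by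
  classical
  letI : CommGroup τ.ker :=
    { (inferInstance : Group τ.ker) with
      mul_comm := fun a b => Subtype.ext ((Subgroup.mem_center_iff.1 (hτ.2.1 a.2) (b : Δ)).symm) }
  let D₁ : Subgroup Δ := ((MonoidHom.snd Q₁ Q₂).comp τ).ker
  let D₂ : Subgroup Δ := ((MonoidHom.fst Q₁ Q₂).comp τ).ker
  let φ₁ : D₁ →* Q₁ := ((MonoidHom.fst Q₁ Q₂).comp τ).comp D₁.subtype
  let φ₂ : D₂ →* Q₂ := ((MonoidHom.snd Q₁ Q₂).comp τ).comp D₂.subtype
  have hs₁ : Function.Surjective φ₁ := fun q => by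
    obtain ⟨d, hd⟩ := hτ.1 (q, 1)
    exact ⟨⟨d, congrArg Prod.snd hd⟩, congrArg Prod.fst hd⟩
  have hs₂ : Function.Surjective φ₂ := fun q => by
    obtain ⟨d, hd⟩ := hτ.1 (1, q)
    exact ⟨⟨d, congrArg Prod.fst hd⟩, congrArg Prod.snd hd⟩
  have hk₁ : ∀ d : D₁, φ₁ d = 1 → (d : Δ) ∈ τ.ker := fun d hd => MonoidHom.mem_ker.2 (Prod.ext hd d.2)
  have hk₂ : ∀ d : D₂, φ₂ d = 1 → (d : Δ) ∈ τ.ker := fun d hd => MonoidHom.mem_ker.2 (Prod.ext d.2 hd)
  obtain ⟨πA, hπA⟩ := exists_surj_central hA φ₁ hs₁ fun d hd => Subgroup.mem_center_iff.2 fun e =>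
    Subtype.ext (Subgroup.mem_center_iff.1 (hτ.2.1 (hk₁ d hd)) _)
  obtain ⟨πB, hπB⟩ := exists_surj_central hB φ₂ hs₂ fun d hd => Subgroup.mem_center_iff.2 fun e =>
    Subtype.ext (Subgroup.mem_center_iff.1 (hτ.2.1 (hk₂ d hd)) _)
  let fA : A →* τ.ker := ((D₁.subtype.comp (Subgroup.subtype _)).comp πA).codRestrict τ.ker
    fun a => hk₁ _ (πA a).2.1
  let fB : B →* τ.ker := ((D₂.subtype.comp (Subgroup.subtype _)).comp πB).codRestrict τ.ker
    fun b => hk₂ _ (πB b).2.1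
  -- the commutator pairing
  have hcm : ∀ (x : D₁) (y : D₂), ⁅(x : Δ), (y : Δ)⁆ ∈ τ.ker := fun x y => by
    have h1 : (τ (x : Δ)).2 = 1 := x.2
    have h2 : (τ (y : Δ)).1 = 1 := y.2
    rw [MonoidHom.mem_ker, map_commutatorElement]
    ext <;> simp [commutatorElement_def, h1, h2]
  have hml : ∀ (x x' : D₁) (y : D₂), ⁅(x : Δ) * x', (y : Δ)⁆ = ⁅(x : Δ), (y : Δ)⁆ * ⁅(x' : Δ), (y : Δ)⁆ := fun x x' y => by
    have hc := Subgroup.mem_center_iff.1 (hτ.2.1 (hcm x' y))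
    rw [show ⁅(x : Δ) * x', (y : Δ)⁆ = (x : Δ) * ⁅(x' : Δ), (y : Δ)⁆ * (x : Δ)⁻¹ * ⁅(x : Δ), (y : Δ)⁆ by
      simp only [commutatorElement_def]; group, hc (x : Δ), mul_inv_cancel_right, hc]
  have hmr : ∀ (x : D₁) (y y' : D₂), ⁅(x : Δ), (y : Δ) * y'⁆ = ⁅(x : Δ), (y : Δ)⁆ * ⁅(x : Δ), (y' : Δ)⁆ := fun x y y' => by
    have hc := Subgroup.mem_center_iff.1 (hτ.2.1 (hcm x y'))
    rw [show ⁅(x : Δ), (y : Δ) * y'⁆ = ⁅(x : Δ), (y : Δ)⁆ * ((y : Δ) * ⁅(x : Δ), (y' : Δ)⁆ * (y : Δ)⁻¹) by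
      simp only [commutatorElement_def]; group, hc (y : Δ), mul_inv_cancel_right]
  choose s₁ hs₁' using hs₁
  choose s₂ hs₂' using hs₂
  let c : Q₁ → Q₂ → τ.ker := fun q r => ⟨⁅(s₁ q : Δ), (s₂ r : Δ)⁆, hcm _ _⟩
  have hwd : ∀ (q : Q₁) (r : Q₂) (x : D₁) (y : D₂), φ₁ x = q → φ₂ y = r → (c q r : Δ) = ⁅(x : Δ), (y : Δ)⁆ := by
    intro q r x y hx hy
    have ha : (((x⁻¹ * s₁ q : D₁)) : Δ) ∈ τ.ker := hk₁ _ (by rw [map_mul, map_inv, hx, hs₁', inv_mul_cancel])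
    have hb : (((y⁻¹ * s₂ r : D₂)) : Δ) ∈ τ.ker := hk₂ _ (by rw [map_mul, map_inv, hy, hs₂', inv_mul_cancel])
    have e1 : (s₁ q : Δ) = (x : Δ) * ((x⁻¹ * s₁ q : D₁) : Δ) := by simp
    have e2 : (s₂ r : Δ) = (y : Δ) * ((y⁻¹ * s₂ r : D₂) : Δ) := by simp
    have z1 : ⁅((x⁻¹ * s₁ q : D₁) : Δ), (s₂ r : Δ)⁆ = 1 := commutatorElement_eq_one_iff_mul_comm.2
      (Subgroup.mem_center_iff.1 (hτ.2.1 ha) _).symm
    have z2 : ⁅(x : Δ), ((y⁻¹ * s₂ r : D₂) : Δ)⁆ = 1 := commutatorElement_eq_one_iff_mul_comm.2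
      (Subgroup.mem_center_iff.1 (hτ.2.1 hb) _)
    change ⁅(s₁ q : Δ), (s₂ r : Δ)⁆ = _
    rw [e1, hml, z1, mul_one, e2, hmr, z2, mul_one]
  have hcl : ∀ q q' r, c (q * q') r = c q r * c q' r := fun q q' r => Subtype.ext (by
    rw [hwd (q * q') r (s₁ q * s₁ q') (s₂ r) (by rw [map_mul, hs₁', hs₁']) (hs₂' r), Subgroup.coe_mul,
      Subgroup.coe_mul, hml])
  have hcr : ∀ q r r', c q (r * r') = c q r * c q r' := fun q r r' => Subtype.ext (by
    rw [hwd q (r * r') (s₁ q) (s₂ r * s₂ r') (hs₁' q) (by rw [map_mul, hs₂', hs₂']), Subgroup.coe_mul,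
      Subgroup.coe_mul, hmr])
  let cR : Q₁ → (Additive (Abelianization Q₂) →+ Additive τ.ker) := fun q =>
    (Abelianization.lift (MonoidHom.mk' (c q) (hcr q))).toAdditive
  let cL : Q₁ →* Multiplicative (Additive (Abelianization Q₂) →+ Additive τ.ker) :=
    MonoidHom.mk' (fun q => Multiplicative.ofAdd (cR q)) fun q q' => congrArg Multiplicative.ofAdd
      (AddMonoidHom.ext fun r => by
        obtain ⟨r, rfl⟩ : ∃ w, abClass w = r := by
          obtain ⟨w, hw⟩ := QuotientGroup.mk_surjective (Additive.toMul r)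
          exact ⟨w, congrArg Additive.ofMul hw⟩
        exact congrArg Additive.ofMul (hcl q q' r))
  let cB : Additive (Abelianization Q₁) →+ Additive (Abelianization Q₂) →+ Additive τ.ker :=
    MonoidHom.toAdditiveLeft (Abelianization.lift cL)
  let fZ : Multiplicative (AbTensor Q₁ Q₂) →* τ.ker := AddMonoidHom.toMultiplicativeLeft
    (TensorProduct.liftAddHom cB fun r m n => by rw [map_zsmul, map_zsmul, AddMonoidHom.smul_apply])
  let π : A × B × Multiplicative (AbTensor Q₁ Q₂) →* τ.ker :=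
    (fA.comp (MonoidHom.fst _ _)) * ((fB.comp ((MonoidHom.fst _ _).comp (MonoidHom.snd _ _))) *
      (fZ.comp ((MonoidHom.snd _ _).comp (MonoidHom.snd _ _))))
  refine ⟨π, ?_⟩
  -- commutators
  let M : Subgroup Δ := fZ.range.map τ.ker.subtype
  have hMc : M ≤ Subgroup.center Δ := (Subgroup.map_subtype_le _).trans hτ.2.1
  have hM : ∀ (x : D₁) (y : D₂), ⁅(x : Δ), (y : Δ)⁆ ∈ M := fun x y => by
    refine ⟨c (φ₁ x) (φ₂ y), ⟨Multiplicative.ofAdd (abClass (φ₁ x) ⊗ₜ[ℤ] abClass (φ₂ y)), rfl⟩, ?_⟩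
    exact hwd _ _ x y rfl rfl
  haveI : M.Normal := ⟨fun m hm g => by
    rwa [Subgroup.mem_center_iff.1 (hMc hm) g, mul_inv_cancel_right]⟩
  have hgen : ∀ d : Δ, ∃ (x : D₁) (y : D₂), d = (x : Δ) * y := fun d => by
    have hx : (τ (s₁ (τ d).1 : Δ)).1 = (τ d).1 := hs₁' _
    refine ⟨s₁ (τ d).1, ⟨(s₁ (τ d).1 : Δ)⁻¹ * d, ?_⟩, by simp⟩
    change (τ ((s₁ (τ d).1 : Δ)⁻¹ * d)).1 = 1
    rw [map_mul, map_inv, Prod.fst_mul, Prod.fst_inv, hx, inv_mul_cancel]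
  let π' := QuotientGroup.mk' M
  have hcomm : commutator Δ ≤ ((commutator D₁).map D₁.subtype ⊔ (commutator D₂).map D₂.subtype) ⊔ M := by
    rw [commutator_def, Subgroup.commutator_le]
    intro g _ h _
    obtain ⟨x, y, rfl⟩ := hgen g
    obtain ⟨x', y', rfl⟩ := hgen h
    have hq : ∀ (u : D₁) (w : D₂), π' (u : Δ) * π' (w : Δ) = π' (w : Δ) * π' (u : Δ) := fun u w => by
      rw [← commutatorElement_eq_one_iff_mul_comm, ← map_commutatorElement]
      exact (QuotientGroup.eq_one_iff _).2 (hM u w)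
    have key : π' ⁅(x : Δ) * y, (x' : Δ) * y'⁆ = π' (⁅(x : Δ), (x' : Δ)⁆ * ⁅(y : Δ), (y' : Δ)⁆) := by
      rw [map_mul, map_commutatorElement, map_commutatorElement, map_commutatorElement, map_mul, map_mul]
      have e1 : Commute (π' (x' : Δ)) (π' (y : Δ)) := hq x' y
      have e2 : Commute (π' (x : Δ)) (π' (y' : Δ)) := hq x y'
      have e3 : Commute (π' (x : Δ)) (π' (y : Δ)) := hq x y
      have e4 : Commute (π' (x' : Δ)) (π' (y' : Δ)) := hq x' y'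
      generalize π' (x : Δ) = a, π' (y : Δ) = b, π' (x' : Δ) = a', π' (y' : Δ) = b' at *
      simp only [commutatorElement_def, mul_inv_rev]
      calc a * b * (a' * b') * (b⁻¹ * a⁻¹) * (b'⁻¹ * a'⁻¹)
          = a * (b * a') * (b' * b⁻¹) * (a⁻¹ * b'⁻¹) * a'⁻¹ := by group
        _ = a * (a' * b) * (b' * b⁻¹) * (b'⁻¹ * a⁻¹) * a'⁻¹ := by rw [e1.eq, (e2.inv_inv).eq]
        _ = a * a' * (b * b' * b⁻¹ * b'⁻¹) * (a⁻¹ * a'⁻¹) := by group
        _ = a * a' * (a⁻¹ * a'⁻¹) * (b * b' * b⁻¹ * b'⁻¹) := by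
          rw [mul_assoc _ _ (a⁻¹ * a'⁻¹), mul_assoc (a * a')]
          congr 1
          exact (((e3.inv_left.mul_left e1.inv_left).mul_right (e2.inv_left.mul_left e4.inv_left)).mul_right
            (e3.inv_inv.mul_left e1.inv_inv)).mul_right (e2.inv_inv.mul_left e4.inv_inv) |>.symm
        _ = _ := by group
    have hm := QuotientGroup.eq.1 key.symm
    rw [← mul_inv_cancel_left (⁅(x : Δ), (x' : Δ)⁆ * ⁅(y : Δ), (y' : Δ)⁆) ⁅(x : Δ) * y, (x' : Δ) * y'⁆]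
    refine Subgroup.mul_mem_sup (Subgroup.mul_mem_sup ?_ ?_) hm
    · exact ⟨⁅x, x'⁆, Subgroup.commutator_mem_commutator (Subgroup.mem_top _) (Subgroup.mem_top _),
        map_commutatorElement D₁.subtype x x'⟩
    · exact ⟨⁅y, y'⁆, Subgroup.commutator_mem_commutator (Subgroup.mem_top _) (Subgroup.mem_top _),
        map_commutatorElement D₂.subtype y y'⟩
  rintro ⟨k, hk⟩
  obtain ⟨cd, hcd, m, hm, rfl⟩ := Subgroup.mem_sup_of_normal_right.1 (hcomm (hτ.2.2 hk))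
  haveI : ((commutator D₂).map D₂.subtype).Normal := by
    constructor
    rintro _ ⟨e, he, rfl⟩ g
    let f : D₂ →* D₂ := (MulAut.conjNormal g).toMonoidHom
    refine ⟨f e, ?_, MulAut.conjNormal_apply g e⟩
    have h : (commutator D₂).map f ≤ commutator D₂ := by
      rw [commutator_def, Subgroup.map_commutator]
      exact Subgroup.commutator_mono le_top le_top
    exact h (Subgroup.mem_map_of_mem _ he)
  obtain ⟨_, ⟨e₁, he₁, rfl⟩, _, ⟨e₂, he₂, rfl⟩, rfl⟩ := Subgroup.mem_sup_of_normal_right.1 hcd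
  obtain ⟨kz, ⟨t, rfl⟩, rfl⟩ := hm
  have htot : τ ((D₁.subtype e₁) * (D₂.subtype e₂)) = 1 := by
    have := MonoidHom.mem_ker.1 hk
    rwa [map_mul, show τ (τ.ker.subtype (fZ t)) = 1 from (fZ t).2, mul_one] at this
  have h1 : φ₁ e₁ = 1 := by
    have := congrArg Prod.fst htot
    rw [map_mul, Prod.fst_mul] at this
    exact (mul_one _).symm.trans ((congrArg (φ₁ e₁ * ·) (show (1 : Q₁) = (τ (e₂ : Δ)).1 from e₂.2.symm)).trans this)
  have h2 : φ₂ e₂ = 1 := by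
    have := congrArg Prod.snd htot
    rw [map_mul, Prod.snd_mul] at this
    exact (one_mul _).symm.trans ((congrArg (· * φ₂ e₂) (show (1 : Q₂) = (τ (e₁ : Δ)).2 from e₁.2.symm)).trans this)
  obtain ⟨a, ha⟩ := hπA ⟨e₁, h1, he₁⟩
  obtain ⟨b, hb⟩ := hπB ⟨e₂, h2, he₂⟩
  refine ⟨(a, b, t), Subtype.ext ?_⟩
  change ((πA a : D₁) : Δ) * (((πB b : D₂) : Δ) * (fZ t : Δ)) = _
  rw [ha, hb, ← mul_assoc]
  rfl

end CfsgLib.Schur
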