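import Cfsg.Agent.Schur.TwoGen
import Mathlib

/-!
# The multiplier of a metacyclic group

`⟨a, b | a ^ m, b ^ n = a ^ t, b a b⁻¹ = a ^ r⟩`.
-/

namespace CfsgLib.Schur.MetaMult

universe u v w

open scoped commutatorElement

/-- The defining relators. -/
def rels (m n r t : ℕ) : Set (FreeGroup Bool) :=
  {FreeGroup.of true ^ m, (FreeGroup.of false) ^ n * (FreeGroup.of true ^ t)⁻¹,
    FreeGroup.of false * FreeGroup.of true * (FreeGroup.of false)⁻¹ * (FreeGroup.of true ^ r)⁻¹}

/-- Numerical data: `m = d m'`, `r - 1 = d r'`, `t = m' l`, `∑ r ^ i = m' s'`, `r' x + m' y = 1`. -/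
structure Data (m n r t k : ℕ) where
  d : ℕ
  m' : ℕ
  r' : ℕ
  s' : ℕ
  l : ℕ
  x : ℤ
  y : ℤ
  hm : m = d * m'
  hr : r = 1 + d * r'
  ht : t = m' * l
  hs : ∑ i ∈ Finset.range n, r ^ i = m' * s'
  hxy : (r' : ℤ) * x + m' * y = 1
  mpos : 0 < m
  npos : 0 < n
  kpos : 0 < k
  kd : k ∣ d
  kl : k ∣ l
  ks : k ∣ s'
  hk : ∀ q : ℕ, q ∣ d → q ∣ l → q ∣ s' → q ∣ k

variable {m n r t k : ℕ}

theorem Data.pow_n (D : Data m n r t k) : r ^ n = 1 + m * (D.r' * D.s') := by
  have h := geom_sum_mul_of_one_le (R := ℕ) (by rw [D.hr]; omega : 1 ≤ r) n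
  have hr' : r - 1 = D.d * D.r' := by have := D.hr; omega
  rw [D.hs, hr'] at h
  have h1 : 1 ≤ r ^ n := Nat.one_le_pow _ _ (by rw [D.hr]; omega)
  have h2 : m * (D.r' * D.s') = r ^ n - 1 :=
    ((congrArg (· * (D.r' * D.s')) D.hm).trans (by ring)).trans h
  omega

theorem Data.zm (D : Data m n r t k) : (m : ℤ) = D.d * D.m' :=
  (congrArg (fun q : ℕ => (q : ℤ)) D.hm).trans (Nat.cast_mul _ _)

theorem Data.zr (D : Data m n r t k) : (r : ℤ) = 1 + D.d * D.r' :=
  (congrArg (fun q : ℕ => (q : ℤ)) D.hr).trans (by push_cast; rfl)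

theorem Data.zt (D : Data m n r t k) : (t : ℤ) = D.m' * D.l :=
  (congrArg (fun q : ℕ => (q : ℤ)) D.ht).trans (Nat.cast_mul _ _)

theorem zmod_eq_zero (q : ℕ) (h : k ∣ q) : (q : ZMod k) = 0 := (ZMod.natCast_eq_zero_iff _ _).2 h

section Upper

variable {Δ : Type v} [Group Δ]

theorem conj_powers {A B z : Δ} (hz : ∀ g, g * z = z * g) (h : B * A * B⁻¹ = A ^ r * z) :
    ∀ j : ℕ, B ^ j * A * (B ^ j)⁻¹ = A ^ (r ^ j) * z ^ (∑ q ∈ Finset.range j, r ^ q) := by
  have hzA : ∀ i : ℕ, B * A ^ i * B⁻¹ = A ^ (r * i) * z ^ i := fun i => by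
    rw [← conj_pow, h, (show Commute (A ^ r) z from hz _).mul_pow, pow_mul]
  have hBz : ∀ i : ℕ, B * z ^ i * B⁻¹ = z ^ i := fun i => by
    rw [← conj_pow, hz B, mul_inv_cancel_right]
  intro j
  induction j with
  | zero => simp
  | succ j ih =>
    calc B ^ (j + 1) * A * (B ^ (j + 1))⁻¹ = B * (B ^ j * A * (B ^ j)⁻¹) * B⁻¹ := by rw [pow_succ']; group
      _ = B * A ^ (r ^ j) * B⁻¹ * (B * z ^ (∑ q ∈ Finset.range j, r ^ q) * B⁻¹) := by rw [ih]; group
      _ = A ^ (r * r ^ j) * z ^ (r ^ j) * z ^ (∑ q ∈ Finset.range j, r ^ q) := by rw [hzA, hBz]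
      _ = _ := by rw [mul_assoc, ← pow_add, ← pow_succ', Finset.sum_range_succ, add_comm (r ^ j)]

theorem kernel_cyclic (D : Data m n r t k) {σ : Δ →* PresentedGroup (rels m n r t)}
    (hσ : Cfsg.IsStemExtension σ)
    (hord : ∀ i : ℤ, (PresentedGroup.of true : PresentedGroup (rels m n r t)) ^ i = 1 → (m : ℤ) ∣ i) :
    ∃ w : Δ, w ^ k = 1 ∧ σ.ker ≤ Subgroup.zpowers w := by
  set a : PresentedGroup (rels m n r t) := PresentedGroup.of true with hadef
  set b : PresentedGroup (rels m n r t) := PresentedGroup.of false with hbdef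
  have hrel : ∀ R ∈ rels m n r t, PresentedGroup.mk (rels m n r t) R = 1 := fun R hR =>
    PresentedGroup.one_of_mem hR
  have ha : a ^ m = 1 := by
    have := hrel _ (Set.mem_insert _ _); rwa [map_pow] at this
  have hb : b ^ n = a ^ t := by
    have := hrel _ (Set.mem_insert_of_mem _ (Set.mem_insert _ _))
    rwa [map_mul, map_inv, map_pow, map_pow, mul_inv_eq_one] at this
  have hba : b * a * b⁻¹ = a ^ r := by
    have := hrel _ (Set.mem_insert_of_mem _ (Set.mem_insert_of_mem _ (Set.mem_singleton _)))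
    rwa [map_mul, map_mul, map_mul, map_inv, map_inv, map_pow, mul_inv_eq_one] at this
  obtain ⟨A, hA⟩ := hσ.1 a
  obtain ⟨B, hB⟩ := hσ.1 b
  have hgen : Subgroup.closure ({σ A, σ B} : Set (PresentedGroup (rels m n r t))) = ⊤ := by
    rw [hA, hB, eq_top_iff, ← PresentedGroup.closure_range_of (rels m n r t), Subgroup.closure_le]
    rintro _ ⟨c, rfl⟩
    cases c
    · exact Subgroup.subset_closure (Or.inr rfl)
    · exact Subgroup.subset_closure (Or.inl rfl)
  set z := (A ^ r)⁻¹ * (B * A * B⁻¹) with hzdef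
  have hzk : z ∈ σ.ker := by
    rw [MonoidHom.mem_ker, hzdef, map_mul, map_inv, map_pow, map_mul, map_mul, map_inv, hA, hB, hba,
      inv_mul_cancel]
  have hz : ∀ g, g * z = z * g := Subgroup.mem_center_iff.1 (hσ.2.1 hzk)
  have hBA : B * A * B⁻¹ = A ^ r * z := by rw [hzdef, mul_inv_cancel_left]
  obtain ⟨u, hu, huA⟩ : ∃ u ∈ σ.ker, A ^ m = u := ⟨_, by rw [MonoidHom.mem_ker, map_pow, hA, ha], rfl⟩
  have huc : ∀ g, g * u = u * g := Subgroup.mem_center_iff.1 (hσ.2.1 hu)
  obtain ⟨v, hv, hvB⟩ : ∃ v ∈ σ.ker, B ^ n = A ^ t * v :=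
    ⟨(A ^ t)⁻¹ * B ^ n, by rw [MonoidHom.mem_ker, map_mul, map_inv, map_pow, map_pow, hA, hB, hb, inv_mul_cancel],
      (mul_inv_cancel_left _ _).symm⟩
  have hvc : ∀ g, g * v = v * g := Subgroup.mem_center_iff.1 (hσ.2.1 hv)
  set w := u ^ D.r' * z ^ D.m' with hwdef
  have huz : Commute u z := (hz u : _)
  have hw : ∀ q : ℕ, w ^ q = u ^ (D.r' * q) * z ^ (D.m' * q) := fun q => by
    rw [hwdef, (huz.pow_pow _ _).mul_pow, ← pow_mul, ← pow_mul]
  have hconjA : ∀ i : ℕ, B * A ^ i * B⁻¹ = A ^ (r * i) * z ^ i := fun i => by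
    rw [← conj_pow, hBA, (show Commute (A ^ r) z from hz _).mul_pow, pow_mul]
  have h1 : w ^ D.d = 1 := by
    have h := hconjA m
    rw [huA, huc B, mul_inv_cancel_right, mul_comm r m, pow_mul, huA, D.hr, pow_add, pow_one, mul_assoc,
      left_eq_mul] at h
    rw [hw, mul_comm D.r', mul_comm D.m', ← D.hm]
    exact h
  have h3 : w ^ D.l = 1 := by
    have hcomm : B * A ^ t * B⁻¹ = A ^ t := by
      have : A ^ t = B ^ n * v⁻¹ := by rw [hvB, mul_inv_cancel_right]
      rw [this, ← mul_assoc, (Commute.self_pow B n).eq, mul_assoc (B ^ n) B v⁻¹,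
        (show Commute B v from hvc B).inv_right.eq]
      group
    have h := hconjA t
    rw [hcomm, D.hr, add_mul, one_mul, pow_add, mul_assoc, left_eq_mul,
      ((congrArg (D.d * D.r' * ·) D.ht).trans (by ring)).trans (congrArg (· * (D.r' * D.l)) D.hm.symm),
      pow_mul, huA] at h
    rw [hw, ← D.ht]
    exact h
  have h2 : w ^ D.s' = 1 := by
    have h := conj_powers hz hBA n
    have hl : B ^ n * A * (B ^ n)⁻¹ = A := by
      rw [hvB, mul_assoc (A ^ t) v A, ← hvc A]; group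
    rw [hl, D.pow_n, D.hs, pow_add, pow_one, mul_assoc, left_eq_mul, pow_mul, huA] at h
    rw [hw]
    exact h
  have hwk : w ^ k = 1 := by
    have hg : Nat.gcd (Nat.gcd D.d D.l) D.s' ∣ k := D.hk _ ((Nat.gcd_dvd_left _ _).trans (Nat.gcd_dvd_left _ _))
      ((Nat.gcd_dvd_left _ _).trans (Nat.gcd_dvd_right _ _)) (Nat.gcd_dvd_right _ _)
    rw [← orderOf_dvd_iff_pow_eq_one]
    exact (Nat.dvd_gcd (Nat.dvd_gcd (orderOf_dvd_of_pow_eq_one h1) (orderOf_dvd_of_pow_eq_one h3))
      (orderOf_dvd_of_pow_eq_one h2)).trans hg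
  refine ⟨w, hwk, ?_⟩
  set C := A ^ (D.d * D.r') * z with hCdef
  have hC : ⁅B, A⁆ = C := by
    have hAr : A ^ r = A ^ (D.d * D.r') * A := by
      rw [← pow_succ]; exact congrArg (A ^ ·) (by have := D.hr; omega)
    rw [commutatorElement_def, hBA, hCdef, mul_assoc, ← hz A⁻¹, ← mul_assoc, hAr, mul_inv_cancel_right]
  have hCA : A * C * A⁻¹ = C := by
    rw [hCdef, ← mul_assoc, (Commute.self_pow A _).eq, mul_assoc _ A z, hz A]
    group
  have hCB : B * C * B⁻¹ = C ^ r := by
    have hzB : B * z * B⁻¹ = z := by rw [hz B, mul_inv_cancel_right]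
    calc B * C * B⁻¹ = (B * A ^ (D.d * D.r') * B⁻¹) * (B * z * B⁻¹) := by rw [hCdef]; group
      _ = A ^ (r * (D.d * D.r')) * z ^ (D.d * D.r') * z := by rw [hconjA, hzB]
      _ = C ^ r := by
        rw [hCdef, (show Commute (A ^ (D.d * D.r')) z from hz _).mul_pow, mul_assoc, ← pow_succ, ← pow_mul,
          mul_comm r, add_comm (D.d * D.r') 1, ← D.hr]
  haveI hCn : (Subgroup.zpowers C).Normal := by
    have hfin : ∀ g : Δ, g * C * g⁻¹ ∈ Subgroup.zpowers C := by
      intro g
      have hS : Subgroup.closure ({A, B} : Set Δ) ⊔ σ.ker = ⊤ := exists_lift_mul hσ.1 hgen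
      have hBinv : B⁻¹ * C * B ∈ Subgroup.zpowers C := by
        have hCn : B ^ n * C * (B ^ n)⁻¹ = C := by
          rw [hvB, mul_assoc (A ^ t) v C, ← hvc C, ← mul_assoc, mul_inv_rev]
          have hAC : Commute (A ^ t) C := (show Commute A C from mul_inv_eq_iff_eq_mul.1 hCA).pow_left t
          rw [hAC.eq]
          group
        have hpow : ∀ j : ℕ, B ^ j * C * (B ^ j)⁻¹ = C ^ (r ^ j) := by
          intro j
          induction j with
          | zero => simp
          | succ j ih =>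
            calc B ^ (j + 1) * C * (B ^ (j + 1))⁻¹ = B * (B ^ j * C * (B ^ j)⁻¹) * B⁻¹ := by
                  rw [pow_succ']; group
              _ = (B * C * B⁻¹) ^ (r ^ j) := by rw [ih, conj_pow]
              _ = _ := by rw [hCB, ← pow_mul, ← pow_succ']
        obtain ⟨j, hj⟩ : ∃ j, n = j + 1 := ⟨n - 1, by have := D.npos; omega⟩
        have e : B⁻¹ * C * B = B ^ j * C * (B ^ j)⁻¹ := by
          have : B⁻¹ * (B ^ n * C * (B ^ n)⁻¹) * B = B ^ j * C * (B ^ j)⁻¹ := by rw [hj, pow_succ']; group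
          rwa [hCn] at this
        rw [e, hpow]
        exact Subgroup.pow_mem _ (Subgroup.mem_zpowers C) _
      obtain ⟨p, hp, q, hq, rfl⟩ := Subgroup.mem_sup_of_normal_right.1 (hS ▸ Subgroup.mem_top g)
      have hq' : ∀ e, e * q = q * e := Subgroup.mem_center_iff.1 (hσ.2.1 hq)
      rw [show p * q * C * (p * q)⁻¹ = p * (q * C * q⁻¹) * p⁻¹ by group, ← hq' C, mul_inv_cancel_right]
      refine Subgroup.closure_induction (p := fun p _ => p * C * p⁻¹ ∈ Subgroup.zpowers C ∧
        p⁻¹ * C * p ∈ Subgroup.zpowers C) ?_ (by simp) (fun p q _ _ hp hq => ?_) (fun p _ hp => ?_) hp |>.1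
      · rintro p (h | h) <;> subst p
        · refine ⟨by rw [hCA]; exact Subgroup.mem_zpowers C, ?_⟩
          rw [show A⁻¹ * C * A = C by
            calc A⁻¹ * C * A = A⁻¹ * (A * C * A⁻¹) * A := by rw [hCA]
              _ = C := by group]
          exact Subgroup.mem_zpowers C
        · exact ⟨by rw [hCB]; exact Subgroup.pow_mem _ (Subgroup.mem_zpowers C) _, hBinv⟩
      · obtain ⟨⟨i, hi⟩, ⟨i', hi'⟩⟩ := hq
        obtain ⟨⟨j, hj⟩, ⟨j', hj'⟩⟩ := hp
        simp only at hi hi' hj hj'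
        constructor
        · rw [show p * q * C * (p * q)⁻¹ = p * (q * C * q⁻¹) * p⁻¹ by group, ← hi, ← conj_zpow, ← hj]
          exact Subgroup.zpow_mem _ (Subgroup.zpow_mem _ (Subgroup.mem_zpowers C) _) _
        · rw [show (p * q)⁻¹ * C * (p * q) = q⁻¹ * (p⁻¹ * C * p) * q⁻¹⁻¹ by group, ← hj', ← conj_zpow, inv_inv, ← hi']
          exact Subgroup.zpow_mem _ (Subgroup.zpow_mem _ (Subgroup.mem_zpowers C) _) _
      · refine ⟨?_, ?_⟩
        · rw [inv_inv]; exact hp.2
        · rw [inv_inv]; exact hp.1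
    refine ⟨fun c hc g => ?_⟩
    obtain ⟨i, rfl⟩ := Subgroup.mem_zpowers_iff.1 hc
    rw [← conj_zpow]
    exact Subgroup.zpow_mem _ (hfin g) _
  intro g hg
  obtain ⟨i, rfl⟩ := Subgroup.mem_zpowers_iff.1
    (commutator_le_of_gen hσ hgen (Subgroup.zpowers C) (by rw [hC]; exact Subgroup.mem_zpowers C) (hσ.2.2 hg))
  have hi : (m : ℤ) ∣ ((D.d * D.r' : ℕ) : ℤ) * i := hord _ (by
    have h : σ (C ^ i) = 1 := MonoidHom.mem_ker.1 hg
    rw [map_zpow, hCdef, map_mul, map_pow, MonoidHom.mem_ker.1 hzk, mul_one, hA] at h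
    rw [zpow_mul, zpow_natCast]
    exact h)
  have hdne : (D.d : ℤ) ≠ 0 := by
    have := D.mpos; rw [D.hm] at this; exact_mod_cast (Nat.pos_of_mul_pos_right this).ne'
  have hi' : (D.m' : ℤ) ∣ i := by
    rw [D.zm] at hi
    push_cast at hi
    rw [mul_assoc] at hi
    have h := Int.dvd_of_mul_dvd_mul_left hdne hi
    have hco : IsCoprime (D.m' : ℤ) (D.r' : ℤ) := ⟨D.y, D.x, by linarith [D.hxy]⟩
    exact hco.dvd_of_dvd_mul_left h
  obtain ⟨j, rfl⟩ := hi'
  refine ⟨j, ?_⟩
  simp only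
  rw [zpow_mul, zpow_natCast, hCdef, (show Commute (A ^ (D.d * D.r')) z from hz _).mul_pow, ← pow_mul,
    show D.d * D.r' * D.m' = m * D.r' by rw [mul_right_comm, ← D.hm], pow_mul, huA]

end Upper

section Model

/-- The abelian group `⟨A, E⟩` with `A ^ m = E ^ x`, `E ^ k = 1`. -/
abbrev Ker0 (D : Data m n r t k) : AddSubgroup (ℤ × ZMod k) :=
  AddSubgroup.zmultiples ((m : ℤ), -(D.x : ZMod k))

/-- The abelian normal subgroup of the model. -/
abbrev NGrp (D : Data m n r t k) : Type := (ℤ × ZMod k) ⧸ Ker0 D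

theorem key_zero (D : Data m n r t k) : (D.y : ZMod k) * (m : ZMod k) + (r - 1 : ℤ) * (D.x : ZMod k) = 0 := by
  have hd : ((D.d : ℤ) : ZMod k) = 0 := by rw [Int.cast_natCast]; exact zmod_eq_zero _ D.kd
  rw [← Int.cast_natCast (R := ZMod k) m, ← Int.cast_mul, ← Int.cast_mul, ← Int.cast_add,
    show D.y * (m : ℤ) + ((r : ℤ) - 1) * D.x = (D.d : ℤ) * ((D.r' : ℤ) * D.x + D.m' * D.y) by
      rw [D.zm, D.zr]; push_cast; ring,
    D.hxy, mul_one, hd]

/-- The action of `B`. -/
def beta (D : Data m n r t k) : NGrp D →+ NGrp D :=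
  QuotientAddGroup.map _ _
    (AddMonoidHom.mk' (fun p : ℤ × ZMod k => ((r : ℤ) * p.1, (D.y : ZMod k) * (p.1 : ZMod k) + p.2))
      fun p q => Prod.ext (mul_add _ _ _) (by simp only [Prod.fst_add, Prod.snd_add]; push_cast; ring))
    (by
      refine AddSubgroup.zmultiples_le.2 (AddSubgroup.mem_zmultiples_iff.2 ⟨(r : ℤ), Prod.ext ?_ ?_⟩)
      · simp [smul_eq_mul]
      · change (r : ℤ) • (-(D.x : ZMod k)) = (D.y : ZMod k) * ((m : ℤ) : ZMod k) + -(D.x : ZMod k)
        have h := key_zero D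
        rw [zsmul_eq_mul]
        push_cast at h ⊢
        linear_combination h.symm)

theorem beta_mk (D : Data m n r t k) (i : ℤ) (e : ZMod k) :
    beta D ((i, e) : ℤ × ZMod k) =
      ((((r : ℤ) * i, (D.y : ZMod k) * (i : ZMod k) + e) : ℤ × ZMod k) : NGrp D) := rfl

theorem beta_iterate (D : Data m n r t k) (j : ℕ) (i : ℤ) (e : ZMod k) :
    (beta D)^[j] ((i, e) : ℤ × ZMod k) =
      ((((r : ℤ) ^ j * i, (∑ q ∈ Finset.range j, (r : ZMod k) ^ q) * (D.y : ZMod k) * (i : ZMod k) + e) :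
        ℤ × ZMod k) : NGrp D) := by
  induction j with
  | zero => simp
  | succ j ih =>
    rw [Function.iterate_succ_apply', ih, beta_mk]
    congr 1
    refine Prod.ext (by ring) ?_
    simp only [Finset.sum_range_succ]
    push_cast
    ring

theorem beta_n (D : Data m n r t k) (v : NGrp D) : (beta D)^[n] v = v := by
  induction v using QuotientAddGroup.induction_on with
  | H p =>
    obtain ⟨i, e⟩ := p
    rw [beta_iterate, QuotientAddGroup.eq]
    refine AddSubgroup.mem_zmultiples_iff.2 ⟨-((D.r' : ℤ) * D.s' * i), Prod.ext ?_ ?_⟩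
    · have h : ((r : ℤ) ^ n) = 1 + m * (D.r' * D.s') := by exact_mod_cast D.pow_n
      simp only [Prod.fst_add, Prod.fst_neg, Prod.smul_fst, smul_eq_mul, h]
      ring
    · have h : (∑ q ∈ Finset.range n, (r : ZMod k) ^ q) = (D.m' : ZMod k) * (D.s' : ZMod k) := by
        have := congrArg (fun q : ℕ => (q : ZMod k)) D.hs
        push_cast at this
        exact this
      simp only [Prod.snd_add, Prod.snd_neg, Prod.smul_snd]
      rw [zsmul_eq_mul, h]
      push_cast
      rw [zmod_eq_zero _ D.ks]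
      ring

theorem finite_NGrp (D : Data m n r t k) : Finite (NGrp D) := by
  haveI : NeZero k := ⟨D.kpos.ne'⟩
  refine Finite.of_surjective (fun p : Fin m × ZMod k => ((((p.1 : ℕ) : ℤ), p.2) : ℤ × ZMod k)) ?_
  intro v
  induction v using QuotientAddGroup.induction_on with
  | H p =>
    obtain ⟨i, e⟩ := p
    have hm0 : (m : ℤ) ≠ 0 := by exact_mod_cast D.mpos.ne'
    have h1 := Int.emod_nonneg i hm0
    have h2 := Int.emod_lt_of_pos i (show (0 : ℤ) < m by exact_mod_cast D.mpos)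
    refine ⟨(⟨(i % m).toNat, by omega⟩, e + ((i / m : ℤ) : ZMod k) * (D.x : ZMod k)), ?_⟩
    rw [QuotientAddGroup.eq]
    refine AddSubgroup.mem_zmultiples_iff.2 ⟨i / m, Prod.ext ?_ ?_⟩
    · simp only [Prod.fst_add, Prod.fst_neg, Prod.smul_fst, smul_eq_mul]
      rw [Int.toNat_of_nonneg h1]
      have := Int.emod_add_mul_ediv i m
      linarith
    · simp only [Prod.snd_add, Prod.snd_neg, Prod.smul_snd]
      rw [zsmul_eq_mul]
      ring

theorem model (D : Data m n r t k) :
    (∀ i : ℤ, (PresentedGroup.of true : PresentedGroup (rels m n r t)) ^ i = 1 → (m : ℤ) ∣ i) ∧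
      ∃ (Γ : Type) (_ : Group Γ) (_ : Finite Γ) (σ : Γ →* PresentedGroup (rels m n r t)),
        Cfsg.IsStemExtension σ ∧ Nonempty (σ.ker ≃* Multiplicative (ZMod k)) := by
  classical
  haveI : NeZero k := ⟨D.kpos.ne'⟩
  haveI := finite_NGrp D
  let M0 := Multiplicative (NGrp D)
  let el : ℤ → ZMod k → M0 := fun i e => Multiplicative.ofAdd (((i, e) : ℤ × ZMod k) : NGrp D)
  have el_add : ∀ i i' e e', el (i + i') (e + e') = el i e * el i' e' := fun i i' e e' => rfl
  have el_pow : ∀ (i : ℤ) (e : ZMod k) (q : ℤ), el i e ^ q = el (q * i) (q • e) := fun i e q => by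
    change Multiplicative.ofAdd (((i, e) : ℤ × ZMod k) : NGrp D) ^ q = _
    rw [← ofAdd_zsmul, ← QuotientAddGroup.mk_zsmul]
    rfl
  have el_eq : ∀ i i' e e', el i e = el i' e' → ∃ q : ℤ, q * m = -i + i' ∧ -(q : ZMod k) * D.x = -e + e' := by
    intro i i' e e' h
    obtain ⟨q, hq⟩ := AddSubgroup.mem_zmultiples_iff.1 (QuotientAddGroup.eq.1 (Multiplicative.ofAdd.injective h))
    refine ⟨q, congrArg Prod.fst hq, ?_⟩
    have := congrArg Prod.snd hq
    rw [Prod.smul_snd, zsmul_eq_mul] at this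
    rw [neg_mul, ← mul_neg]
    exact this
  have el_zero : el 0 0 = 1 := rfl
  let f : M0 →* M0 := AddMonoidHom.toMultiplicative (beta D)
  have f_el : ∀ i e, f (el i e) = el ((r : ℤ) * i) ((D.y : ZMod k) * i + e) := fun i e => rfl
  have fn : ∀ v : M0, f^[n] v = v := fun v => Eq.trans (b := Multiplicative.ofAdd ((beta D)^[n] v.toAdd)) (by
    have h : ∀ j (v : M0), f^[j] v = Multiplicative.ofAdd ((beta D)^[j] v.toAdd) := by
      intro j
      induction j with
      | zero => intro v; rfl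
      | succ j ih => intro v; rw [Function.iterate_succ_apply', ih, Function.iterate_succ_apply']; rfl
    exact h n v) (congrArg Multiplicative.ofAdd (beta_n D v.toAdd))
  have fbij : Function.Bijective f := by
    obtain ⟨j, hj⟩ : ∃ j, n = Nat.succ j := ⟨n - 1, by have := D.npos; omega⟩
    refine ⟨fun v v' h => ?_, fun v => ⟨f^[j] v, ?_⟩⟩
    · have h' := congrArg (f^[j]) h
      rwa [← Function.iterate_succ_apply f, ← Function.iterate_succ_apply f, ← hj, fn, fn] at h'
    · rw [← Function.iterate_succ_apply' f, ← hj, fn]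
  let aut : MulAut M0 := MulEquiv.ofBijective f fbij
  have aut_pow : ∀ (j : ℕ) (v : M0), (aut ^ j) v = f^[j] v := by
    intro j
    induction j with
    | zero => intro v; rfl
    | succ j ih => intro v; rw [pow_succ', MulAut.mul_apply, ih, Function.iterate_succ_apply']; rfl
  have autn : aut ^ n = 1 := MulEquiv.ext fun v => by rw [aut_pow, fn]; rfl
  let c : M0 := el t 0
  have hfc : f c = c := by
    obtain ⟨l', hl'⟩ := D.kl
    change f (el t 0) = el t 0
    rw [f_el]
    refine congrArg Multiplicative.ofAdd (QuotientAddGroup.eq.2 (AddSubgroup.mem_zmultiples_iff.2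
      ⟨-((D.r' : ℤ) * D.l), Prod.ext ?_ ?_⟩))
    · simp only [Prod.fst_add, Prod.fst_neg, Prod.smul_fst, smul_eq_mul]
      rw [D.zt, D.zm, D.zr]
      push_cast
      ring
    · simp only [Prod.snd_add, Prod.snd_neg, Prod.smul_snd]
      rw [zsmul_eq_mul]
      rw [D.zt]
      push_cast
      rw [zmod_eq_zero _ D.kl]
      ring
  have hautc : ∀ j : ℕ, (aut ^ j) c = c := fun j => by
    rw [aut_pow]
    exact Function.iterate_fixed hfc j
  let o := orderOf c
  have hopos : 0 < o := orderOf_pos c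
  haveI : NeZero (n * o) := ⟨(Nat.mul_pos D.npos hopos).ne'⟩
  have hcast : ∀ j : ℕ, aut ^ ((j : ZMod (n * o))).val = aut ^ j := fun j => by
    rw [ZMod.val_natCast]
    refine pow_eq_pow_iff_modEq.2 ?_
    exact ((Nat.mod_modEq j (n * o)).of_dvd (Dvd.dvd.mul_right (orderOf_dvd_of_pow_eq_one autn) o))
  let φ : Multiplicative (ZMod (n * o)) →* MulAut M0 :=
    MonoidHom.mk' (fun z => aut ^ z.toAdd.val) fun z z' => by
      obtain ⟨i, hi⟩ : ∃ i : ℕ, (i : ZMod (n * o)) = z.toAdd := ⟨_, ZMod.natCast_zmod_val _⟩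
      obtain ⟨i', hi'⟩ : ∃ i : ℕ, (i : ZMod (n * o)) = z'.toAdd := ⟨_, ZMod.natCast_zmod_val _⟩
      rw [toAdd_mul, ← hi, ← hi', ← Nat.cast_add, hcast, hcast, hcast, pow_add]
  let S := M0 ⋊[φ] Multiplicative (ZMod (n * o))
  haveI : Finite S := Finite.of_injective (fun s : S => (s.left, s.right))
    fun a b h => SemidirectProduct.ext (congrArg Prod.fst h) (congrArg Prod.snd h)
  let nn : Multiplicative (ZMod (n * o)) := Multiplicative.ofAdd (n : ZMod (n * o))
  have hφn : φ nn = 1 := by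
    change aut ^ ((n : ZMod (n * o))).val = 1
    rw [hcast, autn]
  let d0 : S := ⟨c⁻¹, nn⟩
  have hd0 : ∀ g : S, g * d0 = d0 * g := fun g => by
    refine SemidirectProduct.ext ?_ (mul_comm _ _)
    change g.left * φ g.right c⁻¹ = c⁻¹ * φ nn g.left
    rw [hφn, map_inv, show φ g.right c = c from hautc _, mul_comm]
    rfl
  haveI : (Subgroup.zpowers d0).Normal := by
    constructor
    intro x hx g
    obtain ⟨q, rfl⟩ := Subgroup.mem_zpowers_iff.1 hx
    rw [(show Commute g d0 from hd0 g).zpow_right q, mul_inv_cancel_right]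
    exact Subgroup.zpow_mem _ (Subgroup.mem_zpowers _) _
  let Γ := S ⧸ Subgroup.zpowers d0
  let mkΓ : S →* Γ := QuotientGroup.mk' _
  let iN : M0 →* S := SemidirectProduct.inl
  let iZ : Multiplicative (ZMod (n * o)) →* S := SemidirectProduct.inr
  have hdpow : ∀ q : ℤ, d0 ^ q = iN (c⁻¹ ^ q) * iZ (nn ^ q) := fun q => by
    have h1 : d0 = iN c⁻¹ * iZ nn := (SemidirectProduct.inl_left_mul_inr_right d0).symm
    have h2 : Commute (iN c⁻¹) (iZ nn) := by
      refine SemidirectProduct.ext ?_ ?_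
      · change c⁻¹ * φ 1 1 = 1 * φ nn c⁻¹
        rw [hφn, map_one, mul_one, one_mul]; rfl
      · change (1 : Multiplicative (ZMod (n * o))) * nn = nn * 1
        rw [one_mul, mul_one]
    rw [h1, h2.mul_zpow, map_zpow, map_zpow]
  have hinj : ∀ v : M0, mkΓ (iN v) = 1 → v = 1 := by
    intro v hv
    obtain ⟨q, hq⟩ := Subgroup.mem_zpowers_iff.1 ((QuotientGroup.eq_one_iff _).1 hv)
    rw [hdpow] at hq
    have hr' : nn ^ q = 1 := by
      have := congrArg SemidirectProduct.right hq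
      rwa [SemidirectProduct.mul_right, SemidirectProduct.right_inl, SemidirectProduct.right_inr,
        SemidirectProduct.right_inl, one_mul] at this
    have hoq : (o : ℤ) ∣ q := by
      have h : ((q * n : ℤ) : ZMod (n * o)) = 0 := by
        have h' := congrArg Multiplicative.toAdd hr'
        rw [toAdd_zpow, toAdd_one, toAdd_ofAdd, zsmul_eq_mul] at h'
        push_cast
        exact h'
      rw [ZMod.intCast_zmod_eq_zero_iff_dvd, Nat.cast_mul, mul_comm q] at h
      exact Int.dvd_of_mul_dvd_mul_left (by exact_mod_cast D.npos.ne') h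
    rw [hr', map_one, mul_one] at hq
    rw [← SemidirectProduct.inl_injective hq, inv_zpow, inv_eq_one, ← orderOf_dvd_iff_zpow_eq_one]
    exact hoq
  let G := PresentedGroup (rels m n r t)
  let ga : G := PresentedGroup.of true
  let gb : G := PresentedGroup.of false
  have hrel : ∀ R ∈ rels m n r t, PresentedGroup.mk (rels m n r t) R = 1 := fun R hR =>
    PresentedGroup.one_of_mem hR
  have hga : ga ^ m = 1 := by
    have := hrel _ (Set.mem_insert _ _); rwa [map_pow] at this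
  have hgb : gb ^ n = ga ^ t := by
    have := hrel _ (Set.mem_insert_of_mem _ (Set.mem_insert _ _))
    rwa [map_mul, map_inv, map_pow, map_pow, mul_inv_eq_one] at this
  have hgba : gb * ga * gb⁻¹ = ga ^ r := by
    have := hrel _ (Set.mem_insert_of_mem _ (Set.mem_insert_of_mem _ (Set.mem_singleton _)))
    rwa [map_mul, map_mul, map_mul, map_inv, map_inv, map_pow, mul_inv_eq_one] at this
  let toA : ℤ × ZMod k →+ Additive G :=
    ((zmultiplesHom (Additive G)) (Additive.ofMul ga)).comp (AddMonoidHom.fst ℤ (ZMod k))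
  let fN : M0 →* G := AddMonoidHom.toMultiplicativeLeft (QuotientAddGroup.lift (Ker0 D) toA (by
    refine AddSubgroup.zmultiples_le.2 ?_
    change (m : ℤ) • Additive.ofMul ga = 0
    rw [← ofMul_zpow, zpow_natCast, hga, ofMul_one]))
  have fN_el : ∀ i e, fN (el i e) = ga ^ i := fun i e => rfl
  have hgbM : gb ^ (n * o) = 1 := by
    rw [pow_mul, hgb, ← zpow_natCast ga t, ← fN_el t 0, ← map_pow, pow_orderOf_eq_one, map_one]
  let fZ : Multiplicative (ZMod (n * o)) →* G := MonoidHom.mk' (fun z => gb ^ z.toAdd.val) fun z z' => by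
    rw [toAdd_mul, ← pow_add, ZMod.val_add]
    exact pow_eq_pow_iff_modEq.2 ((Nat.mod_modEq _ _).of_dvd (orderOf_dvd_of_pow_eq_one hgbM))
  have hcompat : ∀ (j : ℕ) (v : M0), fN ((aut ^ j) v) = gb ^ j * fN v * (gb ^ j)⁻¹ := by
    intro j
    induction j with
    | zero => intro v; simp
    | succ j ih =>
      intro v
      rw [pow_succ', MulAut.mul_apply]
      obtain ⟨⟨i, e⟩, he⟩ := QuotientAddGroup.mk_surjective ((aut ^ j) v).toAdd
      have he' : (aut ^ j) v = el i e := congrArg Multiplicative.ofAdd he.symm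
      change fN (f ((aut ^ j) v)) = _
      have h1 := ih v
      rw [he', fN_el] at h1
      rw [he', f_el, fN_el, mul_comm, zpow_mul', zpow_natCast, ← hgba, conj_zpow, h1, pow_succ']
      group
  let σS : S →* G := SemidirectProduct.lift fN fZ fun z => MonoidHom.ext fun v => by
    exact hcompat _ v
  have hσd : Subgroup.zpowers d0 ≤ σS.ker := by
    rw [Subgroup.zpowers_le]
    change fN c⁻¹ * fZ nn = 1
    rw [map_inv, fN_el, inv_mul_eq_one, zpow_natCast, ← hgb]
    change gb ^ n = gb ^ ((n : ZMod (n * o))).val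
    rw [ZMod.val_natCast]
    exact (pow_eq_pow_iff_modEq.2 ((Nat.mod_modEq _ _).of_dvd (orderOf_dvd_of_pow_eq_one hgbM))).symm
  let σ : Γ →* G := QuotientGroup.lift _ σS hσd
  let EE : Γ := mkΓ (iN (el 0 1))
  have hEc : ∀ g : Γ, g * EE = EE * g := by
    intro g
    obtain ⟨g, rfl⟩ := QuotientGroup.mk'_surjective _ g
    rw [← map_mul, ← map_mul]
    congr 1
    refine SemidirectProduct.ext ?_ ((mul_one _).trans (one_mul _).symm)
    change g.left * φ g.right (el 0 1) = el 0 1 * φ 1 g.left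
    rw [map_one, mul_comm]
    congr 1
    change (aut ^ _) (el 0 1) = _
    rw [aut_pow]
    refine Function.iterate_fixed ?_ _
    rw [f_el]
    simp
  have hE1 : σ EE = 1 := by
    change fN (el 0 1) * fZ 1 = 1
    rw [map_one, mul_one, fN_el, zpow_zero]
  haveI : (Subgroup.zpowers EE).Normal := by
    constructor
    intro x hx g
    obtain ⟨q, rfl⟩ := Subgroup.mem_zpowers_iff.1 hx
    rw [(show Commute g EE from hEc g).zpow_right q, mul_inv_cancel_right]
    exact Subgroup.zpow_mem _ (Subgroup.mem_zpowers _) _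
  let Q := Γ ⧸ Subgroup.zpowers EE
  let qm : S →* Q := (QuotientGroup.mk' _).comp mkΓ
  let qA : Q := qm (iN (el 1 0))
  let qB : Q := qm (iZ (Multiplicative.ofAdd 1))
  have hqE : ∀ e : ZMod k, qm (iN (el 0 e)) = 1 := fun e => by
    obtain ⟨q, rfl⟩ := ZMod.intCast_surjective e
    have : el 0 (q : ZMod k) = el 0 1 ^ q := by rw [el_pow, mul_zero, zsmul_eq_mul, mul_one]
    rw [this, map_zpow, map_zpow]
    exact (map_zpow (QuotientGroup.mk' (Subgroup.zpowers EE)) EE q).symm.trans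
      ((QuotientGroup.eq_one_iff _).2 (Subgroup.zpow_mem _ (Subgroup.mem_zpowers EE) q))
  have hqel : ∀ i e, qm (iN (el i e)) = qA ^ i := fun i e => by
    have : el i e = el 1 0 ^ i * el 0 e := by
      rw [el_pow, mul_one, zsmul_zero, ← el_add, add_zero, zero_add]
    rw [this, map_mul, map_mul, hqE, mul_one, map_zpow, map_zpow]
  have hzB : ∀ j : ℕ, iZ (Multiplicative.ofAdd (j : ZMod (n * o))) = iZ (Multiplicative.ofAdd 1) ^ j := fun j => by
    rw [← map_pow, ← ofAdd_nsmul, nsmul_one]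
  have hBAB : iZ (Multiplicative.ofAdd 1) * iN (el 1 0) * (iZ (Multiplicative.ofAdd 1))⁻¹ = iN (el r (D.y : ZMod k)) := by
    change SemidirectProduct.inr _ * SemidirectProduct.inl _ * (SemidirectProduct.inr _)⁻¹ = SemidirectProduct.inl _
    rw [← map_inv, ← SemidirectProduct.inl_aut]
    congr 1
    change (aut ^ ((1 : ZMod (n * o))).val) (el 1 0) = _
    rw [← Nat.cast_one (R := ZMod (n * o)), hcast, aut_pow, Function.iterate_one, f_el, mul_one, add_zero, Int.cast_one,
      mul_one]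
  let gens : Bool → Q := fun b => if b then qA else qB
  have hgens : ∀ R ∈ rels m n r t, FreeGroup.lift gens R = 1 := by
    rintro R (rfl | rfl | rfl)
    · simp only [map_pow, FreeGroup.lift_apply_of, gens, if_true]
      rw [← zpow_natCast, ← hqel m 0, ← hqE (D.x : ZMod k)]
      refine congrArg (qm ∘ iN) (congrArg Multiplicative.ofAdd (QuotientAddGroup.eq.2
        (AddSubgroup.mem_zmultiples_iff.2 ⟨-1, Prod.ext ?_ ?_⟩)))
      · simp
      · simp
    · simp only [map_mul, map_inv, map_pow, FreeGroup.lift_apply_of, gens, if_true, Bool.false_eq_true, if_false]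
      rw [mul_inv_eq_one, ← map_pow, ← hzB, ← zpow_natCast qA t, ← hqel t 0]
      change (QuotientGroup.mk' _) (mkΓ (iZ nn)) = (QuotientGroup.mk' _) (mkΓ (iN c))
      congr 1
      refine QuotientGroup.eq.2 (Subgroup.mem_zpowers_iff.2 ⟨-1, ?_⟩)
      rw [zpow_neg_one]
      refine inv_eq_of_mul_eq_one_left ?_
      refine SemidirectProduct.ext ?_ ?_
      · simp [d0, iN, iZ, hφn]
      · simp [d0, iN, iZ]
    · simp only [map_mul, map_inv, map_pow, FreeGroup.lift_apply_of, gens, if_true, Bool.false_eq_true, if_false]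
      rw [mul_inv_eq_one, ← zpow_natCast qA r, ← hqel r (D.y : ZMod k), ← map_inv, ← map_mul, ← map_mul, hBAB]
  let ψ : G →* Q := PresentedGroup.toGroup hgens
  have hψ : ∀ s : S, ψ (σ (mkΓ s)) = qm s := by
    have : (ψ.comp σS) = qm := by
      refine SemidirectProduct.hom_ext (MonoidHom.ext fun v => ?_) (MonoidHom.ext fun z => ?_)
      · obtain ⟨⟨i, e⟩, he⟩ := QuotientAddGroup.mk_surjective v.toAdd
        have he' : v = el i e := congrArg Multiplicative.ofAdd he.symm
        change ψ (σS (iN v)) = qm (iN v)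
        rw [show σS (iN v) = fN v from SemidirectProduct.lift_inl _ _ _ _, he', fN_el, map_zpow, hqel]
        exact congrArg (· ^ i) (PresentedGroup.toGroup.of hgens)
      · change ψ (σS (iZ z)) = qm (iZ z)
        rw [show σS (iZ z) = fZ z from SemidirectProduct.lift_inr _ _ _ _]
        change ψ (gb ^ z.toAdd.val) = _
        conv_rhs => rw [← ofAdd_toAdd z, ← ZMod.natCast_zmod_val z.toAdd, hzB, map_pow]
        rw [map_pow]
        exact congrArg (· ^ z.toAdd.val) (PresentedGroup.toGroup.of hgens)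
    exact fun s => DFunLike.congr_fun this s
  have hker : σ.ker = Subgroup.zpowers EE := by
    refine le_antisymm (fun g hg => ?_) (Subgroup.zpowers_le.2 hE1)
    obtain ⟨s, rfl⟩ := QuotientGroup.mk'_surjective _ g
    have h := hψ s
    rw [show σ (mkΓ s) = 1 from hg, map_one] at h
    exact (QuotientGroup.eq_one_iff _).1 h.symm
  have hord : ∀ i : ℤ, ga ^ i = 1 → (m : ℤ) ∣ i := by
    intro i hi
    have h : mkΓ (iN (el i 0)) ∈ σ.ker := by
      change σS (iN (el i 0)) = 1
      rw [show σS (iN (el i 0)) = fN (el i 0) from SemidirectProduct.lift_inl _ _ _ _, fN_el, hi]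
    rw [hker] at h
    obtain ⟨q, hq⟩ := Subgroup.mem_zpowers_iff.1 h
    have h1 : (el 0 1 ^ q)⁻¹ * el i 0 = 1 := hinj _ (by
      rw [map_mul, map_mul, map_inv, map_inv, map_zpow, map_zpow, ← hq, inv_mul_cancel])
    rw [inv_mul_eq_one, el_pow, mul_zero] at h1
    obtain ⟨q', hq', -⟩ := el_eq _ _ _ _ h1
    exact ⟨q', by rw [mul_comm, hq', neg_zero, zero_add]⟩
  refine ⟨hord, Γ, inferInstance, inferInstance, σ, ⟨?_, ?_, ?_⟩, ?_⟩
  · rw [← MonoidHom.range_eq_top, eq_top_iff, ← PresentedGroup.closure_range_of, Subgroup.closure_le]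
    rintro _ ⟨b, rfl⟩
    cases b
    · refine ⟨mkΓ (iZ (Multiplicative.ofAdd 1)), ?_⟩
      change σS (iZ (Multiplicative.ofAdd 1)) = gb
      rw [show σS (iZ (Multiplicative.ofAdd 1)) = fZ (Multiplicative.ofAdd 1) from SemidirectProduct.lift_inr _ _ _ _]
      change gb ^ (1 : ZMod (n * o)).val = gb
      conv_rhs => rw [← pow_one gb]
      rw [← Nat.cast_one (R := ZMod (n * o)), ZMod.val_natCast]
      exact pow_eq_pow_iff_modEq.2 ((Nat.mod_modEq _ _).of_dvd (orderOf_dvd_of_pow_eq_one hgbM))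
    · refine ⟨mkΓ (iN (el 1 0)), ?_⟩
      change σS (iN (el 1 0)) = ga
      rw [show σS (iN (el 1 0)) = fN (el 1 0) from SemidirectProduct.lift_inl _ _ _ _, fN_el, zpow_one]
  · rw [hker, Subgroup.zpowers_le]
    exact Subgroup.mem_center_iff.2 hEc
  · rw [hker, Subgroup.zpowers_le]
    have hc1 : mkΓ (iN (el ((r : ℤ) - 1) (D.y : ZMod k))) ∈ commutator Γ := by
      have e1 : el ((r : ℤ) - 1) (D.y : ZMod k) = el r (D.y : ZMod k) * (el 1 0)⁻¹ := by
        rw [eq_mul_inv_iff_mul_eq, ← el_add, sub_add_cancel, add_zero]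
      rw [e1, map_mul, map_mul, ← hBAB, map_inv, map_inv, map_mul, map_mul, map_inv, ← commutatorElement_def]
      exact Subgroup.commutator_mem_commutator (Subgroup.mem_top _) (Subgroup.mem_top _)
    have e2 : el 0 1 = el ((r : ℤ) - 1) (D.y : ZMod k) ^ (D.m' : ℤ) := by
      rw [el_pow]
      refine congrArg Multiplicative.ofAdd (QuotientAddGroup.eq.2 (AddSubgroup.mem_zmultiples_iff.2
        ⟨(D.r' : ℤ), Prod.ext ?_ ?_⟩))
      · simp only [Prod.fst_add, Prod.fst_neg, Prod.smul_fst, smul_eq_mul]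
        rw [D.zm, D.zr]
        push_cast
        ring
      · simp only [Prod.snd_add, Prod.snd_neg, Prod.smul_snd]
        rw [zsmul_eq_mul, zsmul_eq_mul]
        have h := congrArg (fun q : ℤ => (q : ZMod k)) D.hxy
        push_cast at h ⊢
        linear_combination -h
    change mkΓ (iN (el 0 1)) ∈ _
    rw [e2, map_zpow, map_zpow]
    exact Subgroup.zpow_mem _ hc1 _
  · let j0 : Multiplicative (ZMod k) →* Γ :=
      (mkΓ.comp iN).comp (MonoidHom.mk' (fun e => el 0 e.toAdd) fun e e' => by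
        rw [← el_add, add_zero]; rfl)
    have hj0 : ∀ e, j0 e ∈ σ.ker := fun e => by
      change σS (iN (el 0 e.toAdd)) = 1
      rw [show σS (iN (el 0 e.toAdd)) = fN (el 0 e.toAdd) from SemidirectProduct.lift_inl _ _ _ _, fN_el, zpow_zero]
    refine ⟨(MulEquiv.ofBijective (j0.codRestrict σ.ker hj0) ⟨?_, ?_⟩).symm⟩
    · rw [injective_iff_map_eq_one]
      intro e he
      have h1 : el 0 e.toAdd = 1 := hinj _ (congrArg Subtype.val he)
      obtain ⟨q, hq, hq'⟩ := el_eq _ _ _ _ (h1.trans el_zero.symm)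
      rw [neg_zero, add_zero] at hq
      obtain rfl : q = 0 := by
        rcases mul_eq_zero.1 hq with h | h
        · exact h
        · exact absurd h (by exact_mod_cast D.mpos.ne')
      rw [Int.cast_zero, neg_zero, zero_mul, add_zero] at hq'
      exact Multiplicative.toAdd.injective (neg_eq_zero.1 hq'.symm)
    · rintro ⟨g, hg⟩
      obtain ⟨q, rfl⟩ := Subgroup.mem_zpowers_iff.1 (hker ▸ hg)
      refine ⟨Multiplicative.ofAdd (q : ZMod k), Subtype.ext ?_⟩
      change mkΓ (iN (el 0 (q : ZMod k))) = _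
      rw [show el 0 (q : ZMod k) = el 0 1 ^ q by rw [el_pow, mul_zero, zsmul_eq_mul, mul_one], map_zpow, map_zpow]

end Model

theorem hasMultiplier (D : Data m n r t k) :
    Cfsg.HasCyclicSchurMultiplier (PresentedGroup (rels m n r t)) k := by
  obtain ⟨hord, hmodel⟩ := model D
  refine ⟨hmodel, fun Δ _ _ σ hσ => ?_⟩
  obtain ⟨w, hw, hle⟩ := kernel_cyclic D hσ hord
  exact exists_surj_zmod hw σ.ker hle

theorem exists_data (m n r l : ℕ) (hm : 0 < m) (hn : 0 < n) (hr : 0 < r) (hrn : r ^ n ≡ 1 [MOD m]) :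
    Nonempty (Data m n r (m * l / Nat.gcd m (r - 1))
      (Nat.gcd l (Nat.gcd m (r - 1) * Nat.gcd m (∑ i ∈ Finset.range n, r ^ i) / m))) := by
  set d := Nat.gcd m (r - 1) with hd
  set s := ∑ i ∈ Finset.range n, r ^ i with hs
  have hdpos : 0 < d := Nat.gcd_pos_of_pos_left _ hm
  obtain ⟨m', hm'⟩ : d ∣ m := Nat.gcd_dvd_left _ _
  obtain ⟨r', hr'⟩ : d ∣ r - 1 := Nat.gcd_dvd_right _ _
  have hco : Nat.Coprime m' r' := by
    have h : d * Nat.gcd m' r' = d * 1 := by rw [← Nat.gcd_mul_left, ← hm', ← hr', ← hd, mul_one]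
    exact Nat.eq_of_mul_eq_mul_left hdpos h
  have hgs : (r - 1) * s = r ^ n - 1 := by rw [mul_comm]; exact geom_sum_mul_of_one_le hr n
  obtain ⟨s', hs'⟩ : m' ∣ s := by
    have h : m ∣ (r - 1) * s := hgs ▸ (Nat.modEq_iff_dvd' (Nat.one_le_pow _ _ hr)).1 hrn.symm
    rw [hr', hm', mul_assoc] at h
    exact hco.dvd_of_dvd_mul_left ((Nat.mul_dvd_mul_iff_left hdpos).1 h)
  have hm'pos : 0 < m' := Nat.pos_of_mul_pos_left (hm' ▸ hm)
  have hk : d * Nat.gcd m s / m = Nat.gcd d s' := by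
    conv_lhs => rw [hm', hs', mul_comm d m', Nat.gcd_mul_left, ← mul_assoc, mul_comm d m']
    exact Nat.mul_div_cancel_left _ (Nat.mul_pos hm'pos hdpos)
  have ht : m * l / d = m' * l := by
    rw [hm', mul_assoc, Nat.mul_div_cancel_left _ hdpos]
  rw [hk]
  exact ⟨{ d := d, m' := m', r' := r', s' := s', l := l,
           x := Nat.gcdB m' r', y := Nat.gcdA m' r'
           hm := hm', hr := by omega, ht := ht, hs := hs'
           hxy := by
             have h := Nat.gcd_eq_gcd_ab m' r'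
             rw [(hco : Nat.gcd m' r' = 1)] at h
             push_cast at h
             linarith
           mpos := hm, npos := hn
           kpos := Nat.gcd_pos_of_pos_right _ (Nat.gcd_pos_of_pos_left _ hdpos)
           kd := (Nat.gcd_dvd_right _ _).trans (Nat.gcd_dvd_left _ _)
           kl := Nat.gcd_dvd_left _ _
           ks := (Nat.gcd_dvd_right _ _).trans (Nat.gcd_dvd_right _ _)
           hk := fun q h1 h2 h3 => Nat.dvd_gcd h2 (Nat.dvd_gcd h1 h3) }⟩

end CfsgLib.Schur.MetaMult
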