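import Cfsg.Agent.Schur.Pullback

/-!
# Covers are unique over the group iff the abelianization and the multiplier have coprime orders
-/

namespace CfsgLib.Schur

open scoped commutatorElement

universe u v w

theorem cover_unique_of_coprime {Q : Type u} [Group Q] [Finite Q] {A : Type v} [CommGroup A]
    (hA : Cfsg.HasSchurMultiplier Q A) (hco : Nat.Coprime (Nat.card (Abelianization Q)) (Nat.card A))
    {Γ₁ Γ₂ : Type u} [Group Γ₁] [Finite Γ₁] [Group Γ₂] [Finite Γ₂] (σ₁ : Γ₁ →* Q) (σ₂ : Γ₂ →* Q)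
    (h₁ : Cfsg.IsStemExtension σ₁) (h₂ : Cfsg.IsStemExtension σ₂)
    (e₁ : Nonempty (σ₁.ker ≃* A)) (e₂ : Nonempty (σ₂.ker ≃* A)) :
    ∃ e : Γ₁ ≃* Γ₂, σ₂.comp e.toMonoidHom = σ₁ := by
  classical
  let P := pullback σ₁ σ₂
  let φ : P →* Q := σ₁.comp (pfst σ₁ σ₂)
  set n := Nat.card (Abelianization Q)
  set a := Nat.card A
  have hc1 : Nat.card σ₁.ker = a := Nat.card_congr e₁.some.toEquiv
  have hc2 : Nat.card σ₂.ker = a := Nat.card_congr e₂.some.toEquiv
  have hpa : ∀ x : P, φ x = 1 → x ^ a = 1 := fun x hx => by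
    have hx2 : (x : Γ₁ × Γ₂).2 ∈ σ₂.ker := MonoidHom.mem_ker.2 ((mem_pullback.1 x.2).symm.trans hx)
    refine Subtype.ext (Prod.ext ?_ ?_)
    · have h := congrArg Subtype.val
        (hc1 ▸ pow_card_eq_one' (x := (⟨(x : Γ₁ × Γ₂).1, MonoidHom.mem_ker.2 hx⟩ : σ₁.ker)))
      exact h
    · have h := congrArg Subtype.val (hc2 ▸ pow_card_eq_one' (x := (⟨(x : Γ₁ × Γ₂).2, hx2⟩ : σ₂.ker)))
      exact h
  let E : Subgroup P := ((powMonoidHom n).comp (Abelianization.of (G := P))).ker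
  have hE : ∀ x : P, x ∈ E ↔ x ^ n ∈ commutator P := fun x => by
    rw [MonoidHom.mem_ker, MonoidHom.comp_apply, powMonoidHom_apply, ← map_pow]
    exact QuotientGroup.eq_one_iff _
  have hPE : commutator P ≤ E := fun x hx => (hE x).2 (Subgroup.pow_mem _ hx n)
  have hφs : Function.Surjective φ := h₁.1.comp (pfst_surjective h₂.1)
  have hQn : ∀ q : Q, q ^ n ∈ commutator Q := fun q => by
    refine (QuotientGroup.eq_one_iff _).1 ?_
    rw [QuotientGroup.mk_pow]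
    exact pow_card_eq_one' (G := Abelianization Q)
  have hφE : ∀ q : Q, q ∈ E.map φ := by
    intro q
    have hC : commutator Q ≤ E.map φ := by
      rw [← map_commutator_surjective φ hφs]; exact Subgroup.map_mono hPE
    obtain ⟨x, rfl⟩ := hφs q
    have ha : φ x ^ a ∈ E.map φ := by
      obtain ⟨c, hc, hcx⟩ := exists_mem_commutator_lift φ hφs (hQn (φ x))
      have hk : (c⁻¹ * x ^ n) ^ a = 1 := hpa _ (by rw [map_mul, map_inv, hcx, map_pow, inv_mul_cancel])
      have hxa : x ^ a ∈ E := by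
        rw [hE, ← pow_mul, mul_comm, pow_mul]
        have h' : Abelianization.of (c⁻¹ * x ^ n) ^ a = 1 := by rw [← map_pow, hk, map_one]
        rw [map_mul, map_inv, (MonoidHom.mem_ker.1 (Abelianization.commutator_subset_ker _ hc) :
          Abelianization.of c = 1), inv_one, one_mul, ← map_pow] at h'
        exact (QuotientGroup.eq_one_iff _).1 h'
      exact ⟨x ^ a, hxa, map_pow φ x a⟩
    have hn : φ x ^ n ∈ E.map φ := hC (hQn _)
    have hg := Nat.gcd_eq_gcd_ab n a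
    rw [(hco : Nat.gcd n a = 1)] at hg
    rw [← zpow_one (φ x), show (1 : ℤ) = ((1 : ℕ) : ℤ) from rfl, hg, zpow_add, zpow_mul, zpow_mul,
      zpow_natCast, zpow_natCast]
    exact Subgroup.mul_mem _ (Subgroup.zpow_mem _ hn _) (Subgroup.zpow_mem _ ha _)
  let p1 : E →* Γ₁ := (pfst σ₁ σ₂).comp E.subtype
  let p2 : E →* Γ₂ := (psnd σ₁ σ₂).comp E.subtype
  have hσp : ∀ x : E, σ₂ (p2 x) = σ₁ (p1 x) := fun x => (mem_pullback.1 (x : P).2).symm
  have hp1i : Function.Injective p1 := (injective_iff_map_eq_one p1).2 fun x hx => by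
    have hx1 : ((x : P) : Γ₁ × Γ₂).1 = 1 := hx
    have hφx : φ (x : P) = 1 := (congrArg σ₁ hx1).trans (map_one _)
    have hmem : (x : P) ∈ commutator P := by
      have h1 := (hE _).1 x.2
      have h2 : (x : P) ^ a ∈ commutator P := by rw [hpa _ hφx]; exact Subgroup.one_mem _
      have hg := Nat.gcd_eq_gcd_ab n a
      rw [(hco : Nat.gcd n a = 1)] at hg
      rw [← zpow_one (x : P), show (1 : ℤ) = ((1 : ℕ) : ℤ) from rfl, hg, zpow_add, zpow_mul, zpow_mul,
        zpow_natCast, zpow_natCast]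
      exact Subgroup.mul_mem _ (Subgroup.zpow_mem _ h1 _) (Subgroup.zpow_mem _ h2 _)
    exact Subtype.ext (Subtype.ext (Prod.ext hx1 (cover_pullback hA h₁ e₁ σ₂ h₂.1 h₂.2.1 _ hmem hx1)))
  have hp1s : Function.Surjective p1 := fun y => by
    obtain ⟨x, hx, hxy⟩ := hφE (σ₁ y)
    obtain ⟨c, hc, hcy⟩ := exists_mem_commutator_lift (pfst σ₁ σ₂) (pfst_surjective h₂.1)
      (h₁.2.2 (show (p1 ⟨x, hx⟩)⁻¹ * y ∈ σ₁.ker by
        rw [MonoidHom.mem_ker, map_mul, map_inv]; exact inv_mul_eq_one.2 hxy))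
    refine ⟨⟨x, hx⟩ * ⟨c, hPE hc⟩, ?_⟩
    rw [map_mul]
    exact (congrArg (p1 ⟨x, hx⟩ * ·) hcy).trans (mul_inv_cancel_left _ _)
  have hp2s : Function.Surjective p2 := fun y => by
    obtain ⟨x, hx, hxy⟩ := hφE (σ₂ y)
    obtain ⟨c, hc, hcy⟩ := exists_mem_commutator_lift (psnd σ₁ σ₂) (psnd_surjective h₁.1)
      (h₂.2.2 (show (p2 ⟨x, hx⟩)⁻¹ * y ∈ σ₂.ker by
        rw [MonoidHom.mem_ker, map_mul, map_inv, hσp]; exact inv_mul_eq_one.2 hxy))
    refine ⟨⟨x, hx⟩ * ⟨c, hPE hc⟩, ?_⟩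
    rw [map_mul]
    exact (congrArg (p2 ⟨x, hx⟩ * ·) hcy).trans (mul_inv_cancel_left _ _)
  have hcard : Nat.card E = Nat.card Γ₂ := by
    rw [Nat.card_congr (Equiv.ofBijective p1 ⟨hp1i, hp1s⟩), ← σ₁.ker.card_mul_index, ← σ₂.ker.card_mul_index,
      hc1, hc2, Subgroup.index_ker, Subgroup.index_ker, MonoidHom.range_eq_top.2 h₁.1,
      MonoidHom.range_eq_top.2 h₂.1]
  have hp2 : Function.Bijective p2 := (Nat.bijective_iff_surjective_and_card p2).2 ⟨hp2s, hcard⟩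
  refine ⟨(MulEquiv.ofBijective p1 ⟨hp1i, hp1s⟩).symm.trans (MulEquiv.ofBijective p2 hp2), ?_⟩
  refine MonoidHom.ext fun y => ?_
  change σ₂ (p2 ((MulEquiv.ofBijective p1 ⟨hp1i, hp1s⟩).symm y)) = σ₁ y
  rw [hσp]
  exact congrArg σ₁ ((MulEquiv.ofBijective p1 ⟨hp1i, hp1s⟩).apply_symm_apply y)

theorem exists_second_cover {Q : Type u} [Group Q] [Finite Q] {A : Type v} [CommGroup A]
    {Γ : Type u} [Group Γ] [Finite Γ] (σ : Γ →* Q) (hσ : Cfsg.IsStemExtension σ) (eA : σ.ker ≃* A)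
    {p : ℕ} [hp : Fact p.Prime] (hpA : p ∣ Nat.card A) (hpQ : p ∣ Nat.card (Abelianization Q)) :
    ∃ (Γ₂ : Type u) (_ : Group Γ₂) (_ : Finite Γ₂) (σ₂ : Γ₂ →* Q), Cfsg.IsStemExtension σ₂ ∧
      Nonempty (σ₂.ker ≃* A) ∧ ¬ ∃ e : Γ ≃* Γ₂, σ₂.comp e.toMonoidHom = σ := by
  classical
  -- a cyclic direct factor of the abelianization
  obtain ⟨ι, _, N, -, ⟨eq⟩⟩ := CommGroup.equiv_prod_multiplicative_zmod_of_finite (Abelianization Q)
  obtain ⟨i0, hpm⟩ : ∃ i, p ∣ N i := by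
    have hc : Nat.card (Abelianization Q) = ∏ i, N i := by
      rw [Nat.card_congr eq.toEquiv, Nat.card_pi]
      exact Finset.prod_congr rfl fun i _ => Nat.card_zmod (N i)
    rw [hc] at hpQ
    obtain ⟨i, -, hi⟩ := (Nat.Prime.prime hp.out).exists_mem_finset_dvd hpQ
    exact ⟨i, hi⟩
  let ev : Abelianization Q →* Multiplicative (ZMod (N i0)) :=
    (Pi.evalMonoidHom (fun i => Multiplicative (ZMod (N i))) i0).comp eq.toMonoidHom
  let ψ : Q →* Multiplicative (ZMod (N i0)) := ev.comp Abelianization.of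
  obtain ⟨g, hg⟩ : ∃ g : Q, Abelianization.of g = eq.symm (Pi.mulSingle i0 (Multiplicative.ofAdd 1)) :=
    QuotientGroup.mk_surjective _
  have hψg : ψ g = Multiplicative.ofAdd 1 := by
    have h1 : eq (Abelianization.of g) = Pi.mulSingle i0 (Multiplicative.ofAdd 1) := by
      rw [hg, eq.apply_symm_apply]
    show ev (Abelianization.of g) = _
    exact (congrFun h1 i0).trans (Pi.mulSingle_eq_same _ _)
  have hgm : g ^ (N i0) ∈ commutator Q := by
    have h0 : (eq.symm (Pi.mulSingle i0 (Multiplicative.ofAdd 1))) ^ (N i0) = 1 := by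
      rw [← map_pow, ← Pi.mulSingle_pow, ← ofAdd_nsmul, nsmul_one, ZMod.natCast_self, ofAdd_zero,
        Pi.mulSingle_one, map_one]
    rw [← hg, ← map_pow] at h0
    exact (QuotientGroup.eq_one_iff _).1 h0
  -- a kernel element that is not a `p`-th power
  have hkc : ∀ a b : σ.ker, a * b = b * a := fun a b =>
    Subtype.ext ((Subgroup.mem_center_iff.1 (hσ.2.1 a.2) (b : Γ)).symm)
  obtain ⟨z, hz⟩ : ∃ z : σ.ker, ∀ w : σ.ker, w ^ p ≠ z := by
    by_contra hall
    push_neg at hall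
    obtain ⟨w, hw⟩ := exists_prime_orderOf_dvd_card' (G := σ.ker) p
      (by rwa [Nat.card_congr eA.toEquiv])
    have hinj : Function.Injective (fun w : σ.ker => w ^ p) := Finite.injective_iff_surjective.2 hall
    have : w = 1 := hinj (by simp only [one_pow]; rw [← hw, pow_orderOf_eq_one])
    rw [this, orderOf_one] at hw
    exact hp.out.ne_one hw.symm
  set n0 := orderOf z with hn0
  have hn0pos : 0 < n0 := orderOf_pos z
  have hmpos : 0 < (N i0) := by
    rcases Nat.eq_zero_or_pos (N i0) with h | h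
    · exfalso
      haveI : Finite (Multiplicative (ZMod (N i0))) := Finite.of_surjective
        ev ((Function.surjective_eval i0).comp eq.surjective)
      rw [h] at this
      haveI : Finite (Multiplicative ℤ) := this
      exact not_finite (Multiplicative ℤ)
    · exact h
  haveI : NeZero ((N i0) * n0) := ⟨(Nat.mul_pos hmpos hn0pos).ne'⟩
  let π : Multiplicative (ZMod ((N i0) * n0)) →* Multiplicative (ZMod (N i0)) :=
    AddMonoidHom.toMultiplicative (ZMod.castHom (dvd_mul_right (N i0) n0) (ZMod (N i0))).toAddMonoidHom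
  let H : Subgroup (Γ × Multiplicative (ZMod ((N i0) * n0))) := pullback (ψ.comp σ) π
  have hπs : Function.Surjective π :=
    fun x => by
      obtain ⟨y, hy⟩ := ZMod.castHom_surjective (dvd_mul_right (N i0) n0) x.toAdd
      exact ⟨Multiplicative.ofAdd y, congrArg Multiplicative.ofAdd hy⟩
  have hπm : π (Multiplicative.ofAdd ((N i0) : ZMod ((N i0) * n0))) = 1 := by
    change Multiplicative.ofAdd (ZMod.castHom (dvd_mul_right (N i0) n0) (ZMod (N i0)) ((N i0) : ZMod ((N i0) * n0))) = 1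
    rw [map_natCast, ZMod.natCast_self, ofAdd_zero]
  have hdH : ((z : Γ)⁻¹, Multiplicative.ofAdd ((N i0) : ZMod ((N i0) * n0))) ∈ H := by
    change ψ (σ (z : Γ)⁻¹) = π (Multiplicative.ofAdd ((N i0) : ZMod ((N i0) * n0)))
    rw [map_inv, MonoidHom.mem_ker.1 z.2, inv_one, map_one, hπm]
  let d : H := ⟨_, hdH⟩
  have hdc : Subgroup.zpowers d ≤ Subgroup.center H := by
    rw [Subgroup.zpowers_le]
    exact Subgroup.mem_center_iff.2 fun x => Subtype.ext (Prod.ext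
      (Subgroup.mem_center_iff.1 (Subgroup.inv_mem _ (hσ.2.1 z.2)) _) (mul_comm _ _))
  haveI hdn : (Subgroup.zpowers d).Normal := ⟨fun x hx y => by
    rw [Subgroup.mem_center_iff.1 (hdc hx) y, mul_inv_cancel_right]; exact hx⟩
  let fst : H →* Γ := pfst (ψ.comp σ) π
  let snd : H →* Multiplicative (ZMod ((N i0) * n0)) := psnd (ψ.comp σ) π
  have hfs : Function.Surjective fst := pfst_surjective hπs
  have hlow : Subgroup.zpowers d ≤ (σ.comp fst).ker := by
    rw [Subgroup.zpowers_le]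
    change σ (z : Γ)⁻¹ = 1
    rw [map_inv, MonoidHom.mem_ker.1 z.2, inv_one]
  let σ₂ : H ⧸ Subgroup.zpowers d →* Q := QuotientGroup.lift _ (σ.comp fst) hlow
  have hσ₂s : Function.Surjective σ₂ := fun q => by
    obtain ⟨x, rfl⟩ := hσ.1 q
    obtain ⟨h, rfl⟩ := hfs x
    exact ⟨(h : H ⧸ Subgroup.zpowers d), rfl⟩
  let L : Subgroup Γ := (ψ.comp σ).ker
  have hLH : ∀ t : L, ((t : Γ), (1 : Multiplicative (ZMod ((N i0) * n0)))) ∈ H := fun t => by
    change ψ (σ (t : Γ)) = π 1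
    rw [map_one]; exact t.2
  let J0 : L →* H := (MonoidHom.prod L.subtype 1).codRestrict H hLH
  let J : L →* H ⧸ Subgroup.zpowers d := (QuotientGroup.mk' _).comp J0
  have hKL : σ.ker ≤ L := fun t ht => by
    change ψ (σ t) = 1
    rw [MonoidHom.mem_ker.1 ht, map_one]
  let j : σ.ker →* σ₂.ker := (J.comp (Subgroup.inclusion hKL)).codRestrict σ₂.ker fun t => t.2
  have hd_snd : ∀ i : ℤ, snd (d ^ i) = Multiplicative.ofAdd ((i * (N i0) : ℤ) : ZMod ((N i0) * n0)) := fun i => by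
    rw [map_zpow]
    change Multiplicative.ofAdd ((N i0) : ZMod ((N i0) * n0)) ^ i = _
    rw [← ofAdd_zsmul, zsmul_eq_mul]
    push_cast
    rfl
  have hd_fst : ∀ i : ℤ, fst (d ^ i) = (z : Γ) ^ (-i) := fun i => by
    rw [map_zpow, zpow_neg, ← inv_zpow]
    rfl
  have hzmod : ∀ i j : ℤ, ((i * (N i0) : ℤ) : ZMod ((N i0) * n0)) = ((j * (N i0) : ℤ) : ZMod ((N i0) * n0)) →
      (z : Γ) ^ i = (z : Γ) ^ j := fun i j h => by
    rw [ZMod.intCast_eq_intCast_iff] at h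
    have h' := h.dvd
    rw [Nat.cast_mul, ← sub_mul, mul_comm ((N i0) : ℤ) (n0 : ℤ)] at h'
    have h2 : (n0 : ℤ) ∣ j - i := Int.dvd_of_mul_dvd_mul_right (by exact_mod_cast hmpos.ne') h'
    rw [zpow_eq_zpow_iff_modEq, Int.modEq_iff_dvd, Subgroup.orderOf_coe]
    exact h2
  have hj : Function.Bijective j := by
    refine ⟨(injective_iff_map_eq_one j).2 fun t ht => ?_, ?_⟩
    · have ht' : (QuotientGroup.mk' _ (J0 (Subgroup.inclusion hKL t))) = 1 := congrArg Subtype.val ht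
      obtain ⟨u, hi⟩ := Subgroup.mem_zpowers_iff.1 ((QuotientGroup.eq_one_iff _).1 ht')
      have h1 : (z : Γ) ^ (-u) = t := by rw [← hd_fst, hi]; rfl
      have h2 : Multiplicative.ofAdd ((u * (N i0) : ℤ) : ZMod ((N i0) * n0)) = Multiplicative.ofAdd ((0 * (N i0) : ℤ) : ZMod ((N i0) * n0)) := by
        rw [← hd_snd, hi, zero_mul, Int.cast_zero, ofAdd_zero]; rfl
      have h3 := hzmod u 0 (Multiplicative.ofAdd.injective h2)
      rw [zpow_neg, h3, zpow_zero, inv_one] at h1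
      exact Subtype.ext h1.symm
    · rintro ⟨x, hx⟩
      obtain ⟨⟨⟨t, k⟩, htk⟩, rfl⟩ := QuotientGroup.mk'_surjective _ x
      have ht : σ t = 1 := hx
      obtain ⟨k', hk'⟩ := ZMod.intCast_surjective k.toAdd
      have hk1 : π k = 1 := (htk : ψ (σ t) = π k).symm.trans ((congrArg ψ ht).trans (map_one ψ))
      have hmk : ((N i0) : ℤ) ∣ k' := by
        have h0 : ZMod.castHom (dvd_mul_right (N i0) n0) (ZMod (N i0)) k.toAdd = 0 := congrArg Multiplicative.toAdd hk1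
        rw [← hk', map_intCast] at h0
        exact (ZMod.intCast_zmod_eq_zero_iff_dvd _ _).1 h0
      obtain ⟨c, hc⟩ := hmk
      refine ⟨⟨t * (z : Γ) ^ c, Subgroup.mul_mem _ (MonoidHom.mem_ker.2 ht) (Subgroup.zpow_mem _ z.2 _)⟩, Subtype.ext ?_⟩
      refine QuotientGroup.eq.2 (Subgroup.mem_zpowers_iff.2 ⟨c, Subtype.ext (Prod.ext ?_ ?_)⟩)
      · change fst (d ^ c) = (t * (z : Γ) ^ c)⁻¹ * t
        rw [hd_fst, mul_inv_rev, inv_mul_cancel_right, zpow_neg]
      · change snd (d ^ c) = 1⁻¹ * k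
        rw [hd_snd, inv_one, one_mul, mul_comm c, ← hc]
        exact congrArg Multiplicative.ofAdd hk'
  have hHc : ∀ h : H, h ∈ commutator H → snd h = 1 := fun h hh =>
    MonoidHom.mem_ker.1 (Abelianization.commutator_subset_ker snd hh)
  have hstem : Cfsg.IsStemExtension σ₂ := by
    refine ⟨hσ₂s, fun x hx => ?_, fun x hx => ?_⟩
    all_goals obtain ⟨t, ht⟩ := hj.2 ⟨x, hx⟩
    all_goals obtain rfl : (QuotientGroup.mk' _ (J0 (Subgroup.inclusion hKL t))) = x := congrArg Subtype.val ht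
    · refine Subgroup.mem_center_iff.2 fun y => ?_
      obtain ⟨h, rfl⟩ := QuotientGroup.mk'_surjective _ y
      rw [← map_mul, ← map_mul]
      congr 1
      exact Subtype.ext (Prod.ext (Subgroup.mem_center_iff.1 (hσ.2.1 t.2) _) (mul_comm _ _))
    · obtain ⟨h, hh, hht⟩ := exists_mem_commutator_lift fst hfs (hσ.2.2 t.2)
      have : J0 (Subgroup.inclusion hKL t) = h := Subtype.ext (Prod.ext hht.symm (hHc h hh).symm)
      rw [this, ← map_commutator_surjective (QuotientGroup.mk' _) (QuotientGroup.mk'_surjective _)]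
      exact Subgroup.mem_map_of_mem _ hh
  refine ⟨H ⧸ Subgroup.zpowers d, inferInstance, inferInstance, σ₂, hstem,
    ⟨(MulEquiv.ofBijective j hj).symm.trans eA⟩, ?_⟩
  rintro ⟨e, he⟩
  have hlift : ∀ x : Γ, ∃ h : H, e x = QuotientGroup.mk' _ h ∧ σ (fst h) = σ x := fun x => by
    obtain ⟨h, hh⟩ := QuotientGroup.mk'_surjective _ (e x)
    refine ⟨h, hh.symm, ?_⟩
    rw [← DFunLike.congr_fun he x]
    exact congrArg σ₂ hh
  have hcomm : commutator Γ ≤ (MonoidHom.eqLocus (e.toMonoidHom.comp L.subtype) J).map L.subtype := by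
    rw [commutator_def, Subgroup.commutator_le]
    intro x _ y _
    have hL : ⁅x, y⁆ ∈ L := Abelianization.commutator_subset_ker (ψ.comp σ)
      (Subgroup.commutator_mem_commutator (Subgroup.mem_top x) (Subgroup.mem_top y))
    refine ⟨⟨_, hL⟩, ?_, rfl⟩
    change e ⁅x, y⁆ = J ⟨_, hL⟩
    obtain ⟨hx, hx1, hx2⟩ := hlift x
    obtain ⟨hy, hy1, hy2⟩ := hlift y
    rw [map_commutatorElement, hx1, hy1, ← map_commutatorElement]
    refine congrArg (QuotientGroup.mk' _) (Subtype.ext (Prod.ext ?_ ?_))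
    · change fst ⁅hx, hy⁆ = ⁅x, y⁆
      rw [map_commutatorElement]
      obtain ⟨a, ha, hax⟩ : ∃ a ∈ σ.ker, fst hx = x * a :=
        ⟨x⁻¹ * fst hx, by rw [MonoidHom.mem_ker, map_mul, map_inv, hx2, inv_mul_cancel], by group⟩
      obtain ⟨b, hb, hby⟩ : ∃ b ∈ σ.ker, fst hy = y * b :=
        ⟨y⁻¹ * fst hy, by rw [MonoidHom.mem_ker, map_mul, map_inv, hy2, inv_mul_cancel], by group⟩
      have ha' := Subgroup.mem_center_iff.1 (hσ.2.1 ha)
      have hb' := Subgroup.mem_center_iff.1 (hσ.2.1 hb)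
      rw [hax, hby, commutatorElement_def, commutatorElement_def, mul_inv_rev, mul_inv_rev]
      calc x * a * (y * b) * (a⁻¹ * x⁻¹) * (b⁻¹ * y⁻¹)
          = x * (a * (y * b)) * a⁻¹ * x⁻¹ * b⁻¹ * y⁻¹ := by group
        _ = x * (y * b) * x⁻¹ * b⁻¹ * y⁻¹ := by rw [← ha' (y * b)]; group
        _ = x * y * (b * x⁻¹) * b⁻¹ * y⁻¹ := by group
        _ = x * y * x⁻¹ * y⁻¹ := by rw [← hb' x⁻¹]; group
    · exact hHc ⁅hx, hy⁆ (Subgroup.commutator_mem_commutator (Subgroup.mem_top _) (Subgroup.mem_top _))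
  obtain ⟨x0, hx0⟩ := hσ.1 g
  have hxm : x0 ^ (N i0) ∈ commutator Γ := by
    obtain ⟨c, hc, hcg⟩ := exists_mem_commutator_lift σ hσ.1 hgm
    have hk : c⁻¹ * x0 ^ (N i0) ∈ σ.ker := by
      rw [MonoidHom.mem_ker, map_mul, map_inv, hcg, map_pow, hx0, inv_mul_cancel]
    have := Subgroup.mul_mem _ hc (hσ.2.2 hk)
    rwa [mul_inv_cancel_left] at this
  obtain ⟨t, ht, htx⟩ := hcomm hxm
  obtain ⟨h, hh1, hh2⟩ := hlift x0
  have hE2 : QuotientGroup.mk' (Subgroup.zpowers d) (h ^ (N i0)) = J t := by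
    have ht' : e ((t : Γ)) = J t := ht
    rw [← ht', map_pow, ← hh1, ← map_pow]
    exact (congrArg e htx).symm
  obtain ⟨u, hi⟩ := Subgroup.mem_zpowers_iff.1 (QuotientGroup.eq.1 hE2)
  obtain ⟨k', hk'⟩ := ZMod.intCast_surjective (snd h).toAdd
  obtain ⟨a, ha, hax⟩ : ∃ a ∈ σ.ker, fst h = x0 * a :=
    ⟨x0⁻¹ * fst h, by rw [MonoidHom.mem_ker, map_mul, map_inv, hh2, inv_mul_cancel], by group⟩
  have h2 := congrArg snd hi
  have h1 := congrArg fst hi
  rw [hd_snd, map_mul, map_inv, map_pow, show snd (J0 t) = 1 from rfl, mul_one] at h2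
  rw [hd_fst, map_mul, map_inv, map_pow, show fst (J0 t) = (t : Γ) from rfl] at h1
  have htm : (t : Γ) = x0 ^ (N i0) := htx
  have hac : Commute x0 a := Subgroup.mem_center_iff.1 (hσ.2.1 ha) x0
  rw [htm, hax, hac.mul_pow, mul_inv_rev, inv_mul_cancel_right] at h1
  have h2' : ((u * (N i0) : ℤ) : ZMod ((N i0) * n0)) = (((-k') * (N i0) : ℤ) : ZMod ((N i0) * n0)) := by
    have := congrArg Multiplicative.toAdd h2
    rw [toAdd_ofAdd, toAdd_inv, toAdd_pow, ← hk'] at this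
    rw [this]
    push_cast
    rw [nsmul_eq_mul]
    ring
  have hzi := hzmod _ _ h2'
  rw [zpow_neg, hzi, ← zpow_neg, neg_neg] at h1
  have hk1 : ((N i0) : ℤ) ∣ k' - 1 := by
    have h0 : π (snd h) = Multiplicative.ofAdd 1 := by
      rw [← hψg, ← hx0, ← hh2]
      exact (mem_pullback.1 h.2).symm
    have h0' : ZMod.castHom (dvd_mul_right (N i0) n0) (ZMod (N i0)) (snd h).toAdd = ((1 : ℤ) : ZMod (N i0)) := by
      rw [Int.cast_one]; exact congrArg Multiplicative.toAdd h0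
    rw [← hk', map_intCast, ZMod.intCast_eq_intCast_iff] at h0'
    exact h0'.symm.dvd
  obtain ⟨c, hc⟩ := hk1
  obtain ⟨r, hr⟩ : p ∣ (N i0) := hpm
  refine hz ((⟨a, ha⟩ : σ.ker)⁻¹ ^ r * z⁻¹ ^ (c * r)) (Subtype.ext ?_)
  have hcz : Commute ((⟨a, ha⟩ : σ.ker)⁻¹ ^ r) (z⁻¹ ^ (c * r)) := hkc _ _
  rw [hcz.mul_pow, Subgroup.coe_mul, ← pow_mul, ← zpow_natCast (z⁻¹ ^ (c * r)) p, ← zpow_mul, Subgroup.coe_pow,
    Subgroup.coe_zpow, Subgroup.coe_inv, Subgroup.coe_inv, inv_pow, mul_comm r p, ← hr, inv_zpow, ← zpow_neg, ← h1,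
    show (c * r * p : ℤ) = k' - 1 by rw [hc, hr]; push_cast; ring, ← zpow_add]
  simp

end CfsgLib.Schur
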